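import Cfsg.Agent.UnitGeo.RootPairs

/-! Maximality in the special unitary group of the stabiliser of a pair of complementary totally isotropic
halves, of dimension three. -/

set_option autoImplicit false
set_option linter.unusedSectionVars false

namespace CfsgLib.SUSix91

open CfsgLib.UnitGeo

open Cfsg Module CfsgLib.Unitary
open scoped Matrix MatrixGroups

variable {F : Type*} [Field F] {n q : ℕ}

/-- Two complementary totally isotropic subspaces of dimension three. -/
structure Halves (q : ℕ) (U W : Submodule F (Fin n → F)) : Prop where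
  left : ∀ x ∈ U, ∀ y ∈ U, hermForm n F q x y = 0
  right : ∀ x ∈ W, ∀ y ∈ W, hermForm n F q x y = 0
  top : U ⊔ W = ⊤
  inf : ∀ x ∈ U, x ∈ W → x = 0
  same : finrank F W = finrank F U
  dim : finrank F U = 3

variable {U W : Submodule F (Fin n → F)}

lemma Halves.symm (h : Halves q U W) : Halves q W U :=
  ⟨h.right, h.left, by rw [sup_comm, h.top], fun x hx hx' => h.inf x hx' hx, h.same.symm, by
    rw [h.same]; exact h.dim⟩

lemma finrank_span_pair_le' (u v : Fin n → F) :
    finrank F ↥(Submodule.span F {u} ⊔ Submodule.span F {v}) ≤ 2 := by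
  have h3 := Submodule.finrank_add_le_finrank_add_finrank (Submodule.span F {u}) (Submodule.span F {v})
  have h4 : ∀ y : Fin n → F, finrank F (Submodule.span F ({y} : Set (Fin n → F))) ≤ 1 := fun y =>
    (finrank_span_le_card _).trans (by simp)
  have := h4 u
  have := h4 v
  omega

lemma not_mem_span_two {a b c : Fin n → F} (hab : a ∉ Submodule.span F {b})
    (hc : c ∉ Submodule.span F {a} ⊔ Submodule.span F {b}) :
    a ∉ Submodule.span F {b} ⊔ Submodule.span F {c} := by
  intro hm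
  obtain ⟨_, hp, _, hq, e⟩ := Submodule.mem_sup.1 hm
  obtain ⟨r, rfl⟩ := Submodule.mem_span_singleton.1 hp
  obtain ⟨k, rfl⟩ := Submodule.mem_span_singleton.1 hq
  by_cases hk : k = 0
  · rw [hk, zero_smul, add_zero] at e
    exact hab (Submodule.mem_span_singleton.2 ⟨r, e⟩)
  · refine hc ((Submodule.smul_mem_iff _ hk).1 ?_)
    rw [eq_sub_of_add_eq' e]
    exact Submodule.sub_mem _ (Submodule.mem_sup_left (Submodule.mem_span_singleton_self _))
      (Submodule.mem_sup_right (Submodule.smul_mem _ r (Submodule.mem_span_singleton_self _)))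

/-- A vector of `X` annihilated by a functional and outside a subspace of dimension at most one. -/
lemma exists_ortho_avoid {X P : Submodule F (Fin n → F)} (hX : 3 ≤ finrank F X) (hP : finrank F P ≤ 1)
    (a : Fin n → F) :
    ∃ c ∈ X, hermForm n F q c a = 0 ∧ c ∉ P := by
  set L : X →ₗ[F] F := (hermLeft q a).comp X.subtype with hL
  have h1 := LinearMap.finrank_range_add_finrank_ker L
  have h2 := Submodule.finrank_le (LinearMap.range L)
  rw [Module.finrank_self] at h2
  by_contra hc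
  push Not at hc
  have hle : (LinearMap.ker L).map X.subtype ≤ P := by
    rintro _ ⟨x, hx, rfl⟩
    rw [SetLike.mem_coe, LinearMap.mem_ker] at hx
    exact hc _ x.2 hx
  have h4 := Submodule.finrank_mono hle
  rw [← (Submodule.equivMapOfInjective _ X.injective_subtype _).finrank_eq] at h4
  omega

variable [Fintype F] (hF : Fintype.card F = q ^ 2)
include hF

/-- Dual bases of the two halves. -/
lemma Halves.exists_dual_bases (h : Halves q U W) :
    ∃ (u : Fin (finrank F U) → Fin n → F) (w : Fin (finrank F U) → Fin n → F),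
      (∀ i, u i ∈ U) ∧ (∀ i, w i ∈ W) ∧ (∀ i j, hermForm n F q (u i) (w j) = if i = j then 1 else 0) ∧
      Submodule.span F (Set.range u) = U ∧ Submodule.span F (Set.range w) = W := by
  set b : Basis (Fin (finrank F U)) F W := Module.finBasisOfFinrankEq F W h.same with hb
  set φ : U →ₗ[F] (Fin (finrank F U) → F) :=
    (LinearMap.pi fun j => hermLeft q (b j : Fin n → F)).comp U.subtype with hφ
  have hspan : Submodule.span F (Set.range fun j => (b j : Fin n → F)) = W := by
    rw [show (fun j => (b j : Fin n → F)) = W.subtype ∘ b from rfl, Set.range_comp, Submodule.span_image,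
      b.span_eq, Submodule.map_top, Submodule.range_subtype]
  have hinj : Function.Injective φ := by
    rw [← LinearMap.ker_eq_bot, Submodule.eq_bot_iff]
    intro x hx
    apply Subtype.ext
    refine herm_nondeg hF _ fun v => ?_
    obtain ⟨p, hp, r, hr, rfl⟩ := Submodule.mem_sup.1 (h.top ▸ Submodule.mem_top : v ∈ U ⊔ W)
    rw [herm_add_right hF, h.left _ x.2 _ hp, zero_add]
    rw [← hspan] at hr
    clear hp
    induction hr using Submodule.span_induction with
    | mem y hy =>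
      obtain ⟨j, rfl⟩ := hy
      exact congrFun (LinearMap.mem_ker.1 hx) j
    | zero => exact herm_zero_right hF _
    | add y z _ _ hy hz => rw [herm_add_right hF, hy, hz, add_zero]
    | smul c y _ hy => rw [herm_smul_right, hy, mul_zero]
  set φe : U ≃ₗ[F] (Fin (finrank F U) → F) :=
    LinearEquiv.ofInjectiveOfFinrankEq φ hinj (by rw [Module.finrank_fintype_fun_eq_card, Fintype.card_fin]) with hφe
  refine ⟨fun i => (φe.symm (Pi.single i 1) : Fin n → F), fun j => (b j : Fin n → F), fun i => (φe.symm _).2,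
    fun j => (b j).2, fun i j => ?_, ?_, hspan⟩
  · have h1 : φ (φe.symm (Pi.single i 1)) = Pi.single i 1 := φe.apply_symm_apply _
    have h2 := congrFun h1 j
    simp only [hφ, LinearMap.coe_comp, Function.comp_apply, Submodule.coe_subtype, LinearMap.pi_apply,
      hermLeft_apply, Pi.single_apply] at h2
    rw [h2]
    exact if_congr eq_comm rfl rfl
  · set bU := ((Pi.basisFun F (Fin (finrank F U))).map φe.symm) with hbU
    rw [show (fun i => (φe.symm (Pi.single i 1) : Fin n → F)) = U.subtype ∘ bU from funext fun i => by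
      simp [hbU, Pi.basisFun_apply], Set.range_comp, Submodule.span_image, bU.span_eq, Submodule.map_top,
      Submodule.range_subtype]

lemma Halves.exists_dual (h : Halves q U W) {v p r : Fin n → F} (hv : v ∈ U) (hp : p ∈ U) (hr : r ∈ U)
    (hn : v ∉ Submodule.span F {p} ⊔ Submodule.span F {r}) :
    ∃ d ∈ W, hermForm n F q p d = 0 ∧ hermForm n F q r d = 0 ∧ hermForm n F q v d = 1 := by
  obtain ⟨u, w, hu, hw, hd, hsu, -⟩ := h.exists_dual_bases hF
  obtain ⟨φ, hφv, hφ⟩ := Submodule.exists_dual_map_eq_bot_of_notMem hn inferInstance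
  set d0 : Fin n → F := ∑ j, (φ (u j)) ^ q • w j with hd0
  have key : ∀ x ∈ U, hermForm n F q x d0 = φ x := by
    intro x hx
    rw [← hsu] at hx
    induction hx using Submodule.span_induction with
    | mem y hy =>
      obtain ⟨i, rfl⟩ := hy
      rw [hd0, herm_sum_right hF, Finset.sum_eq_single i]
      · rw [herm_smul_right, hd, if_pos rfl, mul_one, pow_q_q hF]
      · intro j _ hj
        rw [herm_smul_right, hd, if_neg (Ne.symm hj), mul_zero]
      · simp
    | zero => rw [herm_zero_left, map_zero]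
    | add y z _ _ hy hz => rw [herm_add_left, hy, hz, map_add]
    | smul c y _ hy => rw [herm_smul_left, hy, map_smul, smul_eq_mul]
  have hz : ∀ z ∈ Submodule.span F {p} ⊔ Submodule.span F {r}, φ z = 0 := fun z hz => by
    have := Submodule.mem_map_of_mem (f := φ) hz
    rwa [hφ, Submodule.mem_bot] at this
  refine ⟨((φ v)⁻¹) ^ q • d0, W.smul_mem _ (W.sum_mem fun j _ => W.smul_mem _ (hw j)), ?_, ?_, ?_⟩
  · rw [herm_smul_right, key p hp, hz p (Submodule.mem_sup_left (Submodule.mem_span_singleton_self p)), mul_zero]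
  · rw [herm_smul_right, key r hr, hz r (Submodule.mem_sup_right (Submodule.mem_span_singleton_self r)), mul_zero]
  · rw [herm_smul_right, key v hv, pow_q_q hF, inv_mul_cancel₀ hφv]

section OverGroup

variable {H : Subgroup (GL (Fin n) F)}
variable (hH : ∀ g ∈ H, ∀ x y, hermForm n F q ((g : Matrix (Fin n) (Fin n) F) *ᵥ x)
  ((g : Matrix (Fin n) (Fin n) F) *ᵥ y) = hermForm n F q x y)
variable (hp : ∀ u ∈ U, ∀ w ∈ W, hermForm n F q u w = 0 → MIn H (rMat q u w))
include hH hp

lemma conj_mem_rMat {a b : Fin n → F} (ha : hermForm n F q a a = 0) (h : MIn H (rMat q a b))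
    {c d : Fin n → F} (hg : MIn H (rMat q c d)) :
    MIn H (rMat q (rMat q c d *ᵥ a) (rMat q c d *ᵥ b)) := by
  obtain ⟨g, hgH, hge⟩ := hg
  obtain ⟨k, hk, hke⟩ := h
  refine ⟨g * k * g⁻¹, H.mul_mem (H.mul_mem hgH hk) (H.inv_mem hgH), ?_⟩
  rw [Units.val_mul, Units.val_mul, hke, conj_rMat hF (hH g hgH) b ha, hge]

lemma conj_mem_tMat {v : Fin n → F} {t : F} (h : MIn H (tMat q v t))
    {c d : Fin n → F} (hg : MIn H (rMat q c d)) :
    MIn H (tMat q (rMat q c d *ᵥ v) t) := by
  obtain ⟨g, hgH, hge⟩ := hg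
  obtain ⟨k, hk, hke⟩ := h
  refine ⟨g * k * g⁻¹, H.mul_mem (H.mul_mem hgH hk) (H.inv_mem hgH), ?_⟩
  rw [Units.val_mul, Units.val_mul, hke, conj_tMat hF (hH g hgH), hge]

/-- A root element attached to a vector of `U` gives a transvection. -/
lemma transv_of_pure_root (h : Halves q U W) {b aU aW : Fin n → F} (hb : b ∈ U) (hb0 : b ≠ 0) (haU : aU ∈ U)
    (haW : aW ∈ W) (haa : hermForm n F q (aU + aW) (aU + aW) = 0) (hab : hermForm n F q b (aU + aW) = 0)
    (hmem : MIn H (rMat q b (aU + aW))) (hind : aU ∉ Submodule.span F {b}) :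
    ∃ v c, v ≠ 0 ∧ hermForm n F q v v = 0 ∧ c ≠ 0 ∧ c + c ^ q = 0 ∧ MIn H (tMat q v c) := by
  obtain ⟨l, hl⟩ := exists_ne_pow_q hF
  obtain ⟨w, hwW, hbw, -, hw⟩ := h.exists_dual hF (v := aU) (p := b) (r := b) haU hb hb (by rwa [sup_idem])
  have hbb := h.left b hb b hb
  have hbw' : hermForm n F q b (l • w) = 0 := by rw [herm_smul_right, hbw, mul_zero]
  have hg := hp b hb (l • w) (W.smul_mem _ hwW) hbw'
  have h1 := conj_mem_rMat hF hH hp hbb hmem hg
  have hgb : rMat q b (l • w) *ᵥ b = b := by rw [rMat_mulVec hbb, hbb, hbw']; simp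
  have hga : rMat q b (l • w) *ᵥ (aU + aW) = aU + aW + (-(l ^ q)) • b := by
    rw [rMat_mulVec hbb, herm_eq_zero_comm hF hab, herm_smul_right, herm_add_left, hw, h.right aW haW w hwW]
    module
  rw [hgb, hga, rMat_add_smul hF hbb hab] at h1
  have hinv : MIn H (rMat q (aU + aW) b) := hmem.of_mul_eq_one (rMat_neg_mul hF hbb haa hab)
  refine ⟨b, -(l ^ q) - (-(l ^ q)) ^ q, hb0, hbb, ?_, ?_, ?_⟩
  · rw [neg_pow_q hF, pow_q_q hF, sub_neg_eq_add, neg_add_eq_sub]
    exact sub_ne_zero.2 fun e => hl e.symm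
  · rw [sub_pow_q hF, pow_q_q hF]
    ring
  · have h2 := hinv.mul h1
    rwa [← mul_assoc, rMat_neg_mul hF haa hbb (herm_eq_zero_comm hF hab), one_mul] at h2

/-- A root element with two-dimensional projection gives a transvection. -/
lemma transv_of_root (h : Halves q U W) {aU aW bU bW : Fin n → F} (haU : aU ∈ U) (haW : aW ∈ W) (hbU : bU ∈ U)
    (hbW : bW ∈ W) (haa : hermForm n F q (aU + aW) (aU + aW) = 0) (hbb : hermForm n F q (bU + bW) (bU + bW) = 0)
    (hab : hermForm n F q (bU + bW) (aU + aW) = 0) (hmem : MIn H (rMat q (bU + bW) (aU + aW)))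
    (hb0 : bU ≠ 0) (hind : aU ∉ Submodule.span F {bU}) {c : Fin n → F} (hcU : c ∈ U)
    (hca : hermForm n F q c aW = 0) (hcb : hermForm n F q c bW = 0)
    (hcN : c ∉ Submodule.span F {aU} ⊔ Submodule.span F {bU}) :
    ∃ v c, v ≠ 0 ∧ hermForm n F q v v = 0 ∧ c ≠ 0 ∧ c + c ^ q = 0 ∧ MIn H (tMat q v c) := by
  obtain ⟨d, hdW, hbd, hcd, had⟩ := h.exists_dual hF haU hbU hcU (not_mem_span_two hind hcN)
  have hcc := h.left c hcU c hcU
  have hg := hp c hcU d hdW hcd
  have h1 := conj_mem_rMat hF hH hp hbb hmem hg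
  have hbc : hermForm n F q (bU + bW) c = 0 := by
    rw [herm_add_left, h.left bU hbU c hcU, herm_eq_zero_comm hF hcb, add_zero]
  have hac : hermForm n F q (aU + aW) c = 0 := by
    rw [herm_add_left, h.left aU haU c hcU, herm_eq_zero_comm hF hca, add_zero]
  have hgb : rMat q c d *ᵥ (bU + bW) = bU + bW := by
    rw [rMat_mulVec hcc, hbc, herm_add_left, hbd, h.right bW hbW d hdW]; simp
  have hga : rMat q c d *ᵥ (aU + aW) = aU + aW + -c := by
    rw [rMat_mulVec hcc, hac, herm_add_left, had, h.right aW haW d hdW]; module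
  have hbc' : hermForm n F q (bU + bW) (-c) = 0 := by rw [herm_neg_right hF, hbc, neg_zero]
  rw [hgb, hga, ← rMat_mul hF hbb hab hbc' (by rw [herm_neg_left, herm_eq_zero_comm hF hac, neg_zero])] at h1
  have h2 := (hmem.of_mul_eq_one (rMat_neg_mul hF hbb haa hab)).mul h1
  rw [← mul_assoc, rMat_neg_mul hF haa hbb (herm_eq_zero_comm hF hab), one_mul] at h2
  have h3 := h2.of_mul_eq_one (rMat_neg_mul hF hbb (by rw [herm_neg_left, herm_neg_right hF, hcc, neg_zero, neg_zero]) hbc')
  have hcm : -c ∈ U := U.neg_mem hcU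
  refine transv_of_pure_root hF hH hp h hcm (fun h0 => hcN ((neg_eq_zero.1 h0).symm ▸ zero_mem _)) hbU hbW hbb
    (herm_eq_zero_comm hF hbc') h3 fun hm => ?_
  obtain ⟨r, hr⟩ := Submodule.mem_span_singleton.1 hm
  rw [smul_neg, ← neg_smul] at hr
  have hr0 : -r ≠ 0 := fun h0 => hb0 (by rw [← hr, h0, zero_smul])
  refine hcN ((Submodule.smul_mem_iff _ hr0).1 ?_)
  rw [hr]
  exact Submodule.mem_sup_right (Submodule.mem_span_singleton_self _)

/-- A root element with split isotropic centre gives a transvection. -/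
lemma transv_of_split_root (h : Halves q U W) {aU aW bU bW : Fin n → F} (haU : aU ∈ U) (haW : aW ∈ W) (hbU : bU ∈ U)
    (hbW : bW ∈ W) (haa : hermForm n F q (aU + aW) (aU + aW) = 0) (hbb : hermForm n F q (bU + bW) (bU + bW) = 0)
    (hab : hermForm n F q (bU + bW) (aU + aW) = 0) (hmem : MIn H (rMat q (bU + bW) (aU + aW)))
    (hb0 : bU ≠ 0) (hpr : hermForm n F q bU bW = 0) (hpa : hermForm n F q bU aW = 0)
    (hind : aU ∉ Submodule.span F {bU}) :
    ∃ v c, v ≠ 0 ∧ hermForm n F q v v = 0 ∧ c ≠ 0 ∧ c + c ^ q = 0 ∧ MIn H (tMat q v c) := by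
  obtain ⟨l, hl⟩ := exists_ne_pow_q hF
  obtain ⟨d, hdW, hbd, -, had⟩ := h.exists_dual hF (v := aU) (p := bU) (r := bU) haU hbU hbU (by rwa [sup_idem])
  have hpp := h.left bU hbU bU hbU
  have hbd' : hermForm n F q bU (l • d) = 0 := by rw [herm_smul_right, hbd, mul_zero]
  have h1 := conj_mem_rMat hF hH hp hbb hmem (hp bU hbU (l • d) (W.smul_mem _ hdW) hbd')
  set e : Fin n → F := (-(l ^ q)) • bU with he
  have hgb : rMat q bU (l • d) *ᵥ (bU + bW) = bU + bW := by
    rw [rMat_mulVec hpp, herm_add_left, hpp, herm_eq_zero_comm hF hpr, herm_add_left, hbd',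
      herm_smul_right, h.right bW hbW d hdW]
    simp
  have hga : rMat q bU (l • d) *ᵥ (aU + aW) = aU + aW + e := by
    rw [rMat_mulVec hpp, herm_add_left, h.left aU haU bU hbU, herm_eq_zero_comm hF hpa, herm_smul_right,
      herm_add_left, had, h.right aW haW d hdW, he]
    module
  have hbe : hermForm n F q (bU + bW) e = 0 := by
    rw [he, herm_smul_right, herm_add_left, hpp, herm_eq_zero_comm hF hpr, add_zero, mul_zero]
  have hea : hermForm n F q e (aU + aW) = 0 := by
    rw [he, herm_smul_left, herm_add_right hF, h.left bU hbU aU haU, hpa, add_zero, mul_zero]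
  have hee : hermForm n F q e e = 0 := by rw [he, herm_smul_left, herm_smul_right, hpp, mul_zero, mul_zero]
  rw [hgb, hga, ← rMat_mul hF hbb hab hbe hea] at h1
  have h2 := (hmem.of_mul_eq_one (rMat_neg_mul hF hbb haa hab)).mul h1
  rw [← mul_assoc, rMat_neg_mul hF haa hbb (herm_eq_zero_comm hF hab), one_mul] at h2
  have h3 := h2.of_mul_eq_one (rMat_neg_mul hF hbb hee hbe)
  have heU : e ∈ U := U.smul_mem _ hbU
  have hew : hermForm n F q e bW = 0 := by rw [he, herm_smul_left, hpr, mul_zero]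
  have hep : hermForm n F q e bU = 0 := h.left e heU bU hbU
  rw [← rMat_mul hF hee hep hew (herm_eq_zero_comm hF hpr)] at h3
  have h4 := h3.mul ((hp e heU bW hbW hew).of_mul_eq_one
    (rMat_neg_mul hF hee (h.right bW hbW bW hbW) hew))
  rw [mul_assoc, rMat_neg_mul hF hee (h.right bW hbW bW hbW) hew, mul_one] at h4
  have h5 := h4.of_mul_eq_one (rMat_neg_mul hF hee hpp hep)
  rw [show e = 0 + (-(l ^ q)) • bU by rw [zero_add, he], rMat_add_smul hF hpp (herm_zero_right hF _),
    show rMat q bU 0 = 1 from matrix_ext fun x => by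
      rw [rMat_mulVec hpp, Matrix.one_mulVec, herm_zero_right hF]; simp, one_mul] at h5
  refine ⟨bU, -(l ^ q) - (-(l ^ q)) ^ q, hb0, hpp, ?_, ?_, h5⟩
  · rw [neg_pow_q hF, pow_q_q hF, sub_neg_eq_add, neg_add_eq_sub]
    exact sub_ne_zero.2 fun e => hl e.symm
  · rw [sub_pow_q hF, pow_q_q hF]
    ring

/-- A totally isotropic three-space through a mixed vector, with root elements at that vector. -/
lemma transv_of_mixed (h : Halves q U W) (hp' : ∀ w ∈ W, ∀ u ∈ U, hermForm n F q w u = 0 → MIn H (rMat q w u))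
    {L : Submodule F (Fin n → F)} (hLd : 3 ≤ finrank F L) (hL : ∀ a ∈ L, ∀ a' ∈ L, hermForm n F q a a' = 0)
    {p r : Fin n → F} (hpU : p ∈ U) (hrW : r ∈ W) (hp0 : p ≠ 0) (hr0 : r ≠ 0) (hbL : p + r ∈ L)
    (hroot : ∀ a ∈ L, ∃ s : F, s ≠ 0 ∧ MIn H (rMat q (p + r) (s • a))) :
    ∃ v c, v ≠ 0 ∧ hermForm n F q v v = 0 ∧ c ≠ 0 ∧ c + c ^ q = 0 ∧ MIn H (tMat q v c) := by
  have hsplit : ∀ v : Fin n → F, ∃ p ∈ U, ∃ r ∈ W, p + r = v := fun v =>
    Submodule.mem_sup.1 (h.top ▸ Submodule.mem_top)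
  have hbb : hermForm n F q (p + r) (p + r) = 0 := hL _ hbL _ hbL
  have hLs : ∀ a ∈ L, hermForm n F q (p + r) a = 0 := fun a ha => hL _ hbL a ha
  -- a vector of one half
  have hpure : ∀ {X Y : Submodule F (Fin n → F)}, Halves q X Y →
      (∀ x ∈ X, ∀ y ∈ Y, hermForm n F q x y = 0 → MIn H (rMat q x y)) →
      ∀ {x y a : Fin n → F}, x ∈ X → y ∈ Y → x + y = p + r → a ∈ X → a ∈ L → a ≠ 0 →
      x ∉ Submodule.span F {a} →
      ∃ v c, v ≠ 0 ∧ hermForm n F q v v = 0 ∧ c ≠ 0 ∧ c + c ^ q = 0 ∧ MIn H (tMat q v c) := by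
    intro X Y hXY hmem x y a hx hy hxy ha haL ha0 hind
    obtain ⟨s, hs, hm⟩ := hroot a haL
    have hm' := hm.of_mul_eq_one (rMat_neg_mul hF hbb (hL _ (L.smul_mem s haL) _ (L.smul_mem s haL))
      (hLs _ (L.smul_mem s haL)))
    rw [← hxy] at hm'
    refine transv_of_pure_root hF hH hmem hXY (X.smul_mem s ha) (smul_ne_zero hs ha0) hx hy (hxy ▸ hbb)
      (by rw [hxy]; exact hL _ (L.smul_mem s haL) _ hbL) hm' fun hm => hind ?_
    obtain ⟨k, hk⟩ := Submodule.mem_span_singleton.1 hm
    rw [smul_smul] at hk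
    exact Submodule.mem_span_singleton.2 ⟨_, hk⟩
  by_cases hLU : ∃ a ∈ L, a ∈ U ∧ a ≠ 0
  · obtain ⟨a, haL, haU, ha0⟩ := hLU
    by_cases hpa : p ∈ Submodule.span F {a}
    swap
    · exact hpure h hp hpU hrW rfl haU haL ha0 hpa
    obtain ⟨k, rfl⟩ := Submodule.mem_span_singleton.1 hpa
    have hpL : k • a ∈ L := L.smul_mem k haL
    set p := k • a
    have hrL : r ∈ L := by simpa using L.sub_mem hbL hpL
    obtain ⟨l, hlL, hlN⟩ : ∃ l ∈ L, l ∉ Submodule.span F {p} ⊔ Submodule.span F {r} := by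
      by_contra hc
      push Not at hc
      have h1 := Submodule.finrank_mono (show L ≤ Submodule.span F {p} ⊔ Submodule.span F {r} from hc)
      have h2 := finrank_span_pair_le' p r
      omega
    obtain ⟨lU, hlU, lW, hlW, rfl⟩ := hsplit l
    by_cases hind : lU ∈ Submodule.span F {p}
    · have hlW' : lW ∈ L := by
        obtain ⟨j, rfl⟩ := Submodule.mem_span_singleton.1 hind
        simpa using L.sub_mem hlL (L.smul_mem j hpL)
      have hlW0 : lW ∉ Submodule.span F {r} := fun hm => hlN (Submodule.add_mem_sup hind hm)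
      refine hpure h.symm hp' hrW hpU (add_comm r p) hlW hlW' (fun h0 => hlW0 (h0 ▸ zero_mem _)) fun hm => hlW0 ?_
      obtain ⟨j, hj⟩ := Submodule.mem_span_singleton.1 hm
      have hj0 : j ≠ 0 := by rintro rfl; exact hr0 (by rw [← hj, zero_smul])
      exact Submodule.mem_span_singleton.2 ⟨j⁻¹, by rw [← hj, inv_smul_smul₀ hj0]⟩
    obtain ⟨s, hs, hm⟩ := hroot _ hlL
    rw [smul_add] at hm
    refine transv_of_split_root hF hH hp h (U.smul_mem s hlU) (W.smul_mem s hlW) hpU hrW
      (by rw [← smul_add]; exact hL _ (L.smul_mem s hlL) _ (L.smul_mem s hlL)) hbb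
      (by rw [← smul_add]; exact hLs _ (L.smul_mem s hlL)) hm hp0 (hL _ hpL _ hrL) ?_
      fun h' => hind ((Submodule.smul_mem_iff _ hs).1 h')
    have h1 := hL _ hpL _ hlL
    rw [herm_add_right hF, h.left p hpU lU hlU, zero_add] at h1
    rw [herm_smul_right, h1, mul_zero]
  by_cases hLW : ∃ a ∈ L, a ∈ W ∧ a ≠ 0
  · obtain ⟨a, haL, haW, ha0⟩ := hLW
    refine hpure h.symm hp' hrW hpU (add_comm r p) haW haL ha0 fun hm => ?_
    obtain ⟨k, hk⟩ := Submodule.mem_span_singleton.1 hm
    have hrL : r ∈ L := hk ▸ L.smul_mem k haL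
    exact hLU ⟨p, by simpa using L.sub_mem hbL hrL, hpU, hp0⟩
  push Not at hLU hLW
  have hzU : ∀ {a b : Fin n → F}, a ∈ U → b ∈ W → a + b ∈ L → a = 0 → b = 0 := by
    intro a b _ hb hab ha
    rw [ha, zero_add] at hab
    exact hLW b hab hb
  -- the projection on the first half
  have hco : IsCompl U W := ⟨Submodule.disjoint_def.2 h.inf, codisjoint_iff.2 h.top⟩
  set π : (Fin n → F) →ₗ[F] (Fin n → F) := U.subtype.comp (U.linearProjOfIsCompl W hco) with hπ
  set π' : (Fin n → F) →ₗ[F] (Fin n → F) := LinearMap.id - π with hπ'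
  have hπU : ∀ x, π x ∈ U := fun x => (U.linearProjOfIsCompl W hco x).2
  have hπW : ∀ x, π' x ∈ W := by
    intro x
    obtain ⟨a, ha, b, hb, rfl⟩ := hsplit x
    have h1 : U.linearProjOfIsCompl W hco a = ⟨a, ha⟩ := Submodule.linearProjOfIsCompl_apply_left hco ⟨a, ha⟩
    have h2 : U.linearProjOfIsCompl W hco b = 0 := Submodule.linearProjOfIsCompl_apply_right hco ⟨b, hb⟩
    simp [hπ, hπ', h1, h2, hb]
  have hπs : ∀ x, π x + π' x = x := fun x => by simp [hπ']
  have hker : ∀ (X : Submodule F (Fin n → F)) (φ : (Fin n → F) →ₗ[F] F),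
      finrank F X ≤ finrank F ↥(X ⊓ LinearMap.ker φ) + 1 := by
    intro X φ
    have h1 := Submodule.finrank_sup_add_finrank_inf_eq X (LinearMap.ker φ)
    have h2 := LinearMap.finrank_range_add_finrank_ker φ
    have h3 := Submodule.finrank_le (LinearMap.range φ)
    have h4 := Submodule.finrank_le (X ⊔ LinearMap.ker φ)
    rw [Module.finrank_self] at h3
    omega
  set K : Submodule F (Fin n → F) := L ⊓ LinearMap.ker ((hermLeft q r).comp π) with hK
  have hKr : ∀ x ∈ K, hermForm n F q (π x) r = 0 := fun x hx => hx.2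
  obtain ⟨l, hlK, hl⟩ : ∃ l ∈ K, hermForm n F q (π l) (π' l) ≠ 0 := by
    by_contra hc
    push Not at hc
    have hB : ∀ x ∈ K, ∀ y ∈ K, hermForm n F q (π x) (π' y) = 0 := by
      intro x hx y hy
      obtain ⟨t, ht⟩ := exists_ne_pow_q hF
      have h1 := hc _ (K.add_mem hx hy)
      have h2 := hc _ (K.add_mem hx (K.smul_mem t hy))
      rw [map_add, map_add, herm_add_left, herm_add_right hF, herm_add_right hF, hc x hx, hc y hy] at h1
      rw [map_add, map_add, map_smul, map_smul, herm_add_left, herm_add_right hF, herm_add_right hF,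
        herm_smul_left, herm_smul_right, herm_smul_left, herm_smul_right, hc x hx, hc y hy] at h2
      have h3 : (t ^ q - t) * hermForm n F q (π x) (π' y) = 0 := by linear_combination h2 - t * h1
      exact (mul_eq_zero.1 h3).resolve_left (sub_ne_zero.2 ht)
    obtain ⟨x, hx, hx0⟩ : ∃ x ∈ K, x ∉ (⊥ : Submodule F (Fin n → F)) := by
      by_contra hc
      push Not at hc
      have h1 := Submodule.finrank_mono (show K ≤ ⊥ from hc)
      have h2 := hker L ((hermLeft q r).comp π)
      rw [finrank_bot] at h1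
      rw [← hK] at h2
      omega
    obtain ⟨y, hy, hyx⟩ : ∃ y ∈ K, y ∉ Submodule.span F {x} := by
      by_contra hc
      push Not at hc
      have h1 := Submodule.finrank_mono (show K ≤ Submodule.span F {x} from hc)
      have h2 := hker L ((hermLeft q r).comp π)
      rw [finrank_span_singleton (by simpa using hx0)] at h1
      rw [← hK] at h2
      omega
    have hinjW : ∀ z ∈ L, π' z = 0 → z = 0 := fun z hz h0 =>
      hLU z hz (by rw [← hπs z, h0, add_zero]; exact hπU z)
    have hinjU : ∀ z ∈ L, π z = 0 → z = 0 := fun z hz h0 =>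
      hLW z hz (by rw [← hπs z, h0, zero_add]; exact hπW z)
    have hind : ∀ (φ : (Fin n → F) →ₗ[F] (Fin n → F)), (∀ z ∈ L, φ z = 0 → z = 0) →
        φ y ∉ Submodule.span F {φ x} := by
      intro φ hφ hm
      obtain ⟨j, hj⟩ := Submodule.mem_span_singleton.1 hm
      have := hφ _ (L.sub_mem hy.1 (L.smul_mem j hx.1)) (by rw [map_sub, map_smul, hj, sub_self])
      exact hyx (Submodule.mem_span_singleton.2 ⟨j, (sub_eq_zero.1 this).symm⟩)
    set X : Submodule F (Fin n → F) := W ⊓ LinearMap.ker (hermLeft q (π x)) ⊓ LinearMap.ker (hermLeft q (π y))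
    have hsp : Submodule.span F {π' x} ⊔ Submodule.span F {π' y} ≤ X :=
      sup_le ((Submodule.span_singleton_le_iff_mem _ _).2 ⟨⟨hπW x, herm_eq_zero_comm hF (hB x hx x hx)⟩,
          herm_eq_zero_comm hF (hB y hy x hx)⟩)
        ((Submodule.span_singleton_le_iff_mem _ _).2 ⟨⟨hπW y, herm_eq_zero_comm hF (hB x hx y hy)⟩,
          herm_eq_zero_comm hF (hB y hy y hy)⟩)
    -- a vector of `W` dual to the third vector
    obtain ⟨u, hu, hu'⟩ : ∃ u ∈ U, u ∉ Submodule.span F {π x} ⊔ Submodule.span F {π y} := by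
      by_contra hc
      push Not at hc
      have h1 := Submodule.finrank_mono (show U ≤ Submodule.span F {π x} ⊔ Submodule.span F {π y} from hc)
      have h2 := finrank_span_pair_le' (π x) (π y)
      have := h.dim
      omega
    obtain ⟨d, hd, hdx, hdy, hdu⟩ := h.exists_dual hF hu (hπU x) (hπU y) hu'
    obtain ⟨e, he, hex, -, hey⟩ := h.exists_dual hF (hπU y) (hπU x) (hπU x)
      (by rw [sup_idem]; exact hind π hinjU)
    have hx0' : π x ≠ 0 := fun h0 => hx0 (by simp [hinjU x hx.1 h0])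
    obtain ⟨e', he', hey', -, hex'⟩ := h.exists_dual hF (hπU x) (hπU y) (hπU y) (by
      rw [sup_idem]
      intro hm
      obtain ⟨j, hj⟩ := Submodule.mem_span_singleton.1 hm
      have hj0 : j ≠ 0 := by rintro rfl; exact hx0' (by rw [← hj, zero_smul])
      exact hind π hinjU (Submodule.mem_span_singleton.2 ⟨j⁻¹, by rw [← hj, inv_smul_smul₀ hj0]⟩))
    set φ : W →ₗ[F] F × F := ((hermLeft q (π x)).prod (hermLeft q (π y))).comp W.subtype with hφ
    have hsurj : Function.Surjective φ := fun z => ⟨z.1 • ⟨e', he'⟩ + z.2 • ⟨e, he⟩, Prod.ext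
      (by simp [hφ, herm_add_left, herm_smul_left, herm_conj hF (π x) e, herm_conj hF (π x) e', hex, hex', zero_pow_q hF])
      (by simp [hφ, herm_add_left, herm_smul_left, herm_conj hF (π y) e, herm_conj hF (π y) e', hey, hey', zero_pow_q hF])⟩
    have h1 := LinearMap.finrank_range_add_finrank_ker φ
    rw [LinearMap.range_eq_top.2 hsurj, finrank_top, Module.finrank_prod, Module.finrank_self] at h1
    have h2 : finrank F (LinearMap.ker φ) = finrank F X := by
      rw [show X = (LinearMap.ker φ).map W.subtype by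
        ext z
        simp [hφ, X, Prod.ext_iff]
        tauto, ← (Submodule.equivMapOfInjective _ W.injective_subtype _).finrank_eq]
    have h3 := Submodule.finrank_mono hsp
    have h4 := Submodule.finrank_sup_add_finrank_inf_eq (Submodule.span F {π' x}) (Submodule.span F {π' y})
    have h5 : Submodule.span F {π' x} ⊓ Submodule.span F {π' y} = ⊥ := by
      rw [← disjoint_iff, Submodule.disjoint_span_singleton]
      · intro hm
        by_contra h0
        obtain ⟨j, hj⟩ := Submodule.mem_span_singleton.1 hm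
        exact hind π' hinjW (Submodule.mem_span_singleton.2 ⟨j, hj⟩)
    rw [h5, finrank_bot, add_zero, finrank_span_singleton (fun h0 => hx0 (by simp [hinjW x hx.1 h0])),
      finrank_span_singleton (fun h0 => hind π' hinjW (by rw [h0]; exact zero_mem _))] at h4
    have := h.same
    have := h.dim
    have := h.symm.dim
    omega
  obtain ⟨a, haK, haN⟩ : ∃ a ∈ L ⊓ LinearMap.ker ((hermLeft q (π l)).comp π'), a ∉ Submodule.span F {p + r} := by
    by_contra hc
    push Not at hc
    have h1 := Submodule.finrank_mono (show L ⊓ LinearMap.ker ((hermLeft q (π l)).comp π') ≤ Submodule.span F {p + r} from hc)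
    have h2 := hker L ((hermLeft q (π l)).comp π')
    have h3 : finrank F (Submodule.span F ({p + r} : Set (Fin n → F))) ≤ 1 :=
      (finrank_span_le_card _).trans (by simp)
    omega
  obtain ⟨s, hs, hm⟩ := hroot a haK.1
  have hca : hermForm n F q (π l) (π' a) = 0 := herm_eq_zero_comm hF haK.2
  rw [← hπs a, smul_add] at hm
  refine transv_of_root hF hH hp h (U.smul_mem s (hπU a)) (W.smul_mem s (hπW a)) hpU hrW
    (by rw [← smul_add, hπs]; exact hL _ (L.smul_mem s haK.1) _ (L.smul_mem s haK.1)) hbb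
    (by rw [← smul_add, hπs]; exact hLs _ (L.smul_mem s haK.1)) hm hp0 (fun hmem => haN ?_) (hπU l)
    (by rw [herm_smul_right, hca, mul_zero]) (hKr l hlK) fun hmem => hl ?_
  · obtain ⟨j, hj⟩ := Submodule.mem_span_singleton.1 hmem
    have h0 := L.sub_mem (L.smul_mem s haK.1) (L.smul_mem j hbL)
    have e : s • a - j • (p + r) = s • π' a - j • r := by
      conv_lhs => rw [← hπs a, smul_add, smul_add, hj]
      abel
    rw [e] at h0
    have := hLW _ h0 (W.sub_mem (W.smul_mem _ (hπW a)) (W.smul_mem _ hrW))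
    rw [← e, sub_eq_zero] at this
    exact (Submodule.smul_mem_iff _ hs).1 (this ▸ Submodule.smul_mem _ j (Submodule.mem_span_singleton_self _))
  · obtain ⟨_, hy, _, hz, e⟩ := Submodule.mem_sup.1 hmem
    obtain ⟨i, rfl⟩ := Submodule.mem_span_singleton.1 hy
    obtain ⟨j, rfl⟩ := Submodule.mem_span_singleton.1 hz
    have h0 := L.sub_mem hlK.1 (L.add_mem (L.smul_mem (i * s) haK.1) (L.smul_mem j hbL))
    have e' : l - ((i * s) • a + j • (p + r)) = π' l - ((i * s) • π' a + j • r) := by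
      conv_lhs => rw [← hπs a, ← hπs l, ← e]
      module
    rw [e'] at h0
    have := sub_eq_zero.1 (hLW _ h0 (W.sub_mem (hπW l) (W.add_mem (W.smul_mem _ (hπW a)) (W.smul_mem _ hrW))))
    rw [this, herm_add_right hF, herm_smul_right, herm_smul_right, hca, hKr l hlK, mul_zero, mul_zero, add_zero]

/-- A transvection at a vector with non-zero `U`-part gives all transvections at vectors of `U`. -/
lemma transv_half_spread (h : Halves q U W) {vU vW : Fin n → F} (hvU : vU ∈ U) (hvW : vW ∈ W)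
    (hv0 : vU ≠ 0) (hvv : hermForm n F q (vU + vW) (vU + vW) = 0) {g0 : F} (hg0 : g0 ≠ 0) (htr : g0 + g0 ^ q = 0)
    (hv : MIn H (tMat q (vU + vW) g0)) :
    ∀ u ∈ U, ∀ t : F, t + t ^ q = 0 → MIn H (tMat q u t) := by
  have hd := h.dim
  obtain ⟨c, hcU, hcv, hcN⟩ := exists_ortho_avoid (q := q) (X := U) (P := Submodule.span F {vU}) (by omega)
    (finrank_span_singleton hv0).le vW
  have hc0 : c ≠ 0 := fun h0 => hcN (h0 ▸ zero_mem _)
  have hvUc : vU ∉ Submodule.span F {c} ⊔ Submodule.span F {c} := by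
    rw [sup_idem]
    intro hm
    obtain ⟨r, hr⟩ := Submodule.mem_span_singleton.1 hm
    have hr0 : r ≠ 0 := by rintro rfl; exact hv0 (by rw [← hr, zero_smul])
    exact hcN (Submodule.mem_span_singleton.2 ⟨r⁻¹, by rw [← hr, inv_smul_smul₀ hr0]⟩)
  obtain ⟨d, hdW, hcd, -, hvd⟩ := h.exists_dual hF hvU hcU hcU hvUc
  have hcc := h.left c hcU c hcU
  have hvc : hermForm n F q (vU + vW) c = 0 := by
    rw [herm_add_left, h.left vU hvU c hcU, herm_eq_zero_comm hF hcv, add_zero]
  have hshift : ∀ α : F, MIn H (tMat q (vU + vW + α • c) g0) := by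
    intro α
    have hαc : hermForm n F q ((-α) • c) ((-α) • c) = 0 := by rw [herm_self_smul, hcc, mul_zero]
    have h1 := conj_mem_tMat hF hH hp hv (hp ((-α) • c) (U.smul_mem _ hcU) d hdW (by rw [herm_smul_left, hcd, mul_zero]))
    rwa [rMat_mulVec hαc, herm_smul_right, hvc, mul_zero, zero_smul, add_zero, herm_add_left, hvd,
      h.right vW hvW d hdW, add_zero, one_smul, sub_eq_add_neg, neg_smul, neg_neg] at h1
  have hneg : ∀ x : Fin n → F, hermForm n F q x x = 0 → MIn H (tMat q x g0) → MIn H (tMat q x (-g0)) :=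
    fun x hx hm => hm.of_mul_eq_one (by rw [tMat_mul hF hx, add_neg_cancel, tMat_zero hF])
  have hiso : ∀ α : F, hermForm n F q (vU + vW + α • c) (vU + vW + α • c) = 0 := by
    intro α
    rw [herm_add_left (vU + vW) (α • c), herm_add_right hF (vU + vW), herm_add_right hF (α • c) (vU + vW),
      hvv, herm_smul_left, herm_smul_left, herm_smul_right, herm_smul_right, hvc, hcc, herm_eq_zero_comm hF hvc]
    ring
  obtain ⟨α, hα⟩ : ∃ α : F, α + α ^ q ≠ 0 := by
    obtain ⟨x, hx⟩ := exists_trace_eq hF (a := 1) (one_pow q)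
    exact ⟨x, by rw [hx]; exact one_ne_zero⟩
  have hc : MIn H (tMat q c (g0 * (α + α ^ q))) := by
    rw [← tMat_polar hF hvv hcc hvc g0 α]
    have h1 := hshift 1
    rw [one_smul] at h1
    have hiso1 := hiso 1
    rw [one_smul] at hiso1
    exact (((hshift (α + 1)).mul (hneg _ (hiso α) (hshift α))).mul (hneg _ hiso1 h1)).mul hv
  set k := g0 * (α + α ^ q) with hk
  have move : ∀ p r : Fin n → F, p ∈ U → r ∈ U → r ∉ Submodule.span F {p} → MIn H (tMat q p k) →
      p ≠ 0 → MIn H (tMat q r k) := by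
    intro p r hpU hrU hr hmem hp0
    have hnp : p ∉ Submodule.span F {r - p} ⊔ Submodule.span F {r - p} := by
      rw [sup_idem]
      intro hm
      obtain ⟨s, hs⟩ := Submodule.mem_span_singleton.1 hm
      have hs0 : s ≠ 0 := by rintro rfl; exact hp0 (by rw [← hs, zero_smul])
      refine hr ((Submodule.smul_mem_iff _ hs0).1 ?_)
      rw [show s • r = p + s • p by rw [← add_left_inj (-(s • p)), add_neg_cancel_right, ← sub_eq_add_neg, ← smul_sub, hs]]
      exact Submodule.add_mem _ (Submodule.mem_span_singleton_self _) (Submodule.smul_mem _ s (Submodule.mem_span_singleton_self _))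
    obtain ⟨d, hdW, hrd, -, hpd⟩ := h.exists_dual hF hpU (U.sub_mem hrU hpU) (U.sub_mem hrU hpU) hnp
    have h1 := conj_mem_tMat hF hH hp hmem (hp (r - p) (U.sub_mem hrU hpU) (-d) (W.neg_mem hdW)
      (by rw [herm_neg_right hF, hrd, neg_zero]))
    rwa [rMat_mulVec (h.left _ (U.sub_mem hrU hpU) _ (U.sub_mem hrU hpU)), h.left p hpU _ (U.sub_mem hrU hpU),
      herm_neg_right hF, hpd, zero_smul, add_zero, neg_smul, one_smul, sub_neg_eq_add, add_sub_cancel] at h1
  have hall : ∀ u ∈ U, MIn H (tMat q u k) := by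
    intro u hu
    by_cases hu0 : u = 0
    · refine ⟨1, H.one_mem, matrix_ext fun x => ?_⟩
      rw [tMat_mulVec, hu0, smul_zero, add_zero, Units.val_one, Matrix.one_mulVec]
    by_cases huc : u ∈ Submodule.span F {c}
    · obtain ⟨e, heU, -, heN⟩ := exists_ortho_avoid (q := q) (X := U) (P := Submodule.span F {c}) (by omega)
        (finrank_span_singleton hc0).le 0
      have he0 : e ≠ 0 := fun h0 => heN (h0 ▸ zero_mem _)
      refine move e u heU hu (fun hm => ?_) (move c e hcU heU heN hc hc0) he0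
      obtain ⟨r, hr⟩ := Submodule.mem_span_singleton.1 hm
      have hr0 : r ≠ 0 := by rintro rfl; exact hu0 (by rw [← hr, zero_smul])
      exact heN ((Submodule.smul_mem_iff _ hr0).1 (hr.symm ▸ huc))
    · exact move c u hcU hu huc hc hc0
  intro u hu t ht
  have hk0 : k ≠ 0 := mul_ne_zero hg0 hα
  have hkq : k ^ q = -k := by
    rw [hk, mul_pow, add_pow_q hF, pow_q_q hF, eq_neg_of_add_eq_zero_right htr]
    ring
  obtain ⟨s, hs⟩ := exists_norm_eq hF (a := t / k) (by
    rw [div_pow, hkq, eq_neg_of_add_eq_zero_right ht, neg_div_neg_eq])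
  have h1 := hall (s • u) (U.smul_mem _ hu)
  rwa [tMat_smul hF, hs, mul_div_cancel₀ _ hk0] at h1

end OverGroup

/-- An element of the special unitary group exchanging the two halves. -/
lemma Halves.exists_swap (h : Halves q U W) : ∃ s ∈ Cfsg.GU n F q ⊓ Cfsg.Geo.specialLinear (Fin n) F,
    (∀ x ∈ U, (s : Matrix (Fin n) (Fin n) F) *ᵥ x ∈ W) ∧ (∀ x ∈ W, (s : Matrix (Fin n) (Fin n) F) *ᵥ x ∈ U) := by
  obtain ⟨u, w, hu, hw, hd, hsu, hsw⟩ := h.exists_dual_bases hF
  have hd' : ∀ i j, hermForm n F q (w j) (u i) = if i = j then 1 else 0 := by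
    intro i j
    rw [herm_conj hF, hd]
    split <;> simp [zero_pow_q hF]
  obtain ⟨c, hc0, hc⟩ := exists_trace_zero_ne_zero hF
  have huu : ∀ i j, hermForm n F q (u i) (u j) = 0 := fun i j => h.left _ (hu i) _ (hu j)
  have hww : ∀ i j, hermForm n F q (w i) (w j) = 0 := fun i j => h.right _ (hw i) _ (hw j)
  classical
  suffices key : ∀ S : Finset (Fin (finrank F U)), ∃ s ∈ Cfsg.GU n F q ⊓ Cfsg.Geo.specialLinear (Fin n) F,
      (∀ j, (s : Matrix (Fin n) (Fin n) F) *ᵥ u j = if j ∈ S then (-c⁻¹) • w j else u j) ∧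
      (∀ j, (s : Matrix (Fin n) (Fin n) F) *ᵥ w j = if j ∈ S then c • u j else w j) by
    obtain ⟨s, hs, h1, h2⟩ := key Finset.univ
    refine ⟨s, hs, fun x hx => ?_, fun x hx => ?_⟩
    · rw [← hsu] at hx
      induction hx using Submodule.span_induction with
      | mem y hy => obtain ⟨j, rfl⟩ := hy; rw [h1, if_pos (Finset.mem_univ j)]; exact W.smul_mem _ (hw j)
      | zero => rw [Matrix.mulVec_zero]; exact W.zero_mem
      | add y z _ _ hy hz => rw [Matrix.mulVec_add]; exact W.add_mem hy hz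
      | smul a y _ hy => rw [Matrix.mulVec_smul]; exact W.smul_mem _ hy
    · rw [← hsw] at hx
      induction hx using Submodule.span_induction with
      | mem y hy => obtain ⟨j, rfl⟩ := hy; rw [h2, if_pos (Finset.mem_univ j)]; exact U.smul_mem _ (hu j)
      | zero => rw [Matrix.mulVec_zero]; exact U.zero_mem
      | add y z _ _ hy hz => rw [Matrix.mulVec_add]; exact U.add_mem hy hz
      | smul a y _ hy => rw [Matrix.mulVec_smul]; exact U.smul_mem _ hy
  intro S
  induction S using Finset.induction_on with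
  | empty => exact ⟨1, one_mem _, fun j => by simp, fun j => by simp⟩
  | insert i S hiS ih =>
    obtain ⟨s, hs, h1, h2⟩ := ih
    obtain ⟨g1, hg1, e1⟩ := exists_tMat_mem hF (huu i i) hc
    obtain ⟨g2, hg2, e2⟩ := exists_tMat_mem hF (hww i i) (neg_inv_trace_zero hF hc)
    refine ⟨g1 * g2 * g1 * s, mul_mem (mul_mem (mul_mem hg1 hg2) hg1) hs, fun j => ?_, fun j => ?_⟩ <;>
      rw [Units.val_mul, Units.val_mul, Units.val_mul, ← Matrix.mulVec_mulVec, ← Matrix.mulVec_mulVec,
        ← Matrix.mulVec_mulVec, e1, e2]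
    · rw [h1]
      by_cases hji : j = i
      · subst hji
        rw [if_neg hiS, if_pos (Finset.mem_insert_self _ _)]
        simp only [tMat_mulVec, herm_add_left, herm_smul_left, huu, hww, hd, hd', if_true]
        match_scalars <;> field_simp <;> ring
      · by_cases hjS : j ∈ S
        · rw [if_pos hjS, if_pos (Finset.mem_insert_of_mem hjS)]
          simp only [tMat_mulVec, herm_add_left, herm_smul_left, huu, hww, hd, hd', if_neg hji, if_neg (Ne.symm hji)]
          module
        · rw [if_neg hjS, if_neg (by simp [hji, hjS])]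
          simp only [tMat_mulVec, herm_add_left, herm_smul_left, huu, hww, hd, hd', if_neg hji, if_neg (Ne.symm hji)]
          module
    · rw [h2]
      by_cases hji : j = i
      · subst hji
        rw [if_neg hiS, if_pos (Finset.mem_insert_self _ _)]
        simp only [tMat_mulVec, herm_add_left, herm_smul_left, huu, hww, hd, hd', if_true]
        match_scalars <;> field_simp <;> ring
      · by_cases hjS : j ∈ S
        · rw [if_pos hjS, if_pos (Finset.mem_insert_of_mem hjS)]
          simp only [tMat_mulVec, herm_add_left, herm_smul_left, huu, hww, hd, hd', if_neg hji, if_neg (Ne.symm hji)]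
          module
        · rw [if_neg hjS, if_neg (by simp [hji, hjS])]
          simp only [tMat_mulVec, herm_add_left, herm_smul_left, huu, hww, hd, hd', if_neg hji, if_neg (Ne.symm hji)]
          module

/-- The stabiliser of an isotropic pair is maximal in the special unitary group. -/
theorem halves_isMaximal (h32 : ¬ (n = 3 ∧ q = 2)) (h : Halves q U W) (P : Subgroup (GL (Fin n) F))
    (hP : ∀ g, g ∈ P ↔ g ∈ Cfsg.GU n F q ⊓ Cfsg.Geo.specialLinear (Fin n) F ∧
      ((∀ x ∈ U, (g : Matrix (Fin n) (Fin n) F) *ᵥ x ∈ U) ∧ (∀ x ∈ W, (g : Matrix (Fin n) (Fin n) F) *ᵥ x ∈ W) ∨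
       (∀ x ∈ U, (g : Matrix (Fin n) (Fin n) F) *ᵥ x ∈ W) ∧ (∀ x ∈ W, (g : Matrix (Fin n) (Fin n) F) *ᵥ x ∈ U))) :
    Cfsg.Geo.IsMaximalIn (Cfsg.GU n F q ⊓ Cfsg.Geo.specialLinear (Fin n) F) P := by
  have hd := h.dim
  have hsame := h.same
  have hsplit : ∀ v : Fin n → F, ∃ p ∈ U, ∃ r ∈ W, p + r = v := fun v =>
    Submodule.mem_sup.1 (h.top ▸ Submodule.mem_top)
  have hinfb : U ⊓ W = ⊥ := (Submodule.eq_bot_iff _).2 fun x hx => h.inf x hx.1 hx.2
  have hcard := Submodule.finrank_sup_add_finrank_inf_eq U W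
  rw [h.top, finrank_top, finrank_fintype_fun_eq_card, Fintype.card_fin, hinfb, finrank_bot] at hcard
  have hPUW : ∀ u ∈ U, ∀ w ∈ W, hermForm n F q u w = 0 → MIn P (rMat q u w) := by
    intro u hu w hw huw
    obtain ⟨g, hg, e⟩ := exists_rMat_mem hF (h.left u hu u hu) (h.right w hw w hw) huw
    refine ⟨g, (hP _).2 ⟨hg, Or.inl ⟨fun x hx => ?_, fun x hx => ?_⟩⟩, e⟩
    · rw [e, rMat_mulVec (h.left u hu u hu), h.left x hx u hu, zero_smul, add_zero]
      exact U.sub_mem hx (U.smul_mem _ hu)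
    · rw [e, rMat_mulVec (h.left u hu u hu), h.right x hx w hw, zero_smul, sub_zero]
      exact W.add_mem hx (W.smul_mem _ hw)
  refine ⟨lt_of_le_not_ge (fun g hg => ((hP g).1 hg).1) fun hle => ?_, fun M hPM hMG => ?_⟩
  · obtain ⟨u, huU, hu0⟩ := Submodule.exists_mem_ne_zero_of_ne_bot (p := U) (by
      intro h0; rw [h0, finrank_bot] at hd; omega)
    obtain ⟨x, hxW, -, -, hux⟩ := h.exists_dual hF (v := u) (p := 0) (r := 0) huU U.zero_mem U.zero_mem
      (by simpa using hu0)
    obtain ⟨c, hc0, hc⟩ := exists_trace_zero_ne_zero hF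
    obtain ⟨g, hg, e⟩ := exists_tMat_mem hF (h.left u huU u huU) hc
    obtain ⟨-, hfix⟩ := (hP _).1 (hle hg)
    rcases hfix with ⟨-, h1⟩ | ⟨h1, -⟩
    · have h2 := W.sub_mem (h1 x hxW) hxW
      rw [e, tMat_mulVec, add_sub_cancel_left, herm_conj hF u x, hux, one_pow, mul_one] at h2
      exact hu0 (h.inf u huU ((Submodule.smul_mem_iff _ hc0).1 h2))
    · have h2 := h1 u huU
      rw [e, tMat_mulVec, h.left u huU u huU, mul_zero, zero_smul, add_zero] at h2
      exact hu0 (h.inf u huU h2)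
  by_cases hMP : M ≤ P
  · exact Or.inl (le_antisymm hMP hPM)
  refine Or.inr (le_antisymm hMG ?_)
  have hMI : ∀ g ∈ M, ∀ x y, hermForm n F q ((g : Matrix (Fin n) (Fin n) F) *ᵥ x)
      ((g : Matrix (Fin n) (Fin n) F) *ᵥ y) = hermForm n F q x y := fun g hg => (hMG hg).1
  have hUW : ∀ u ∈ U, ∀ w ∈ W, hermForm n F q u w = 0 → MIn M (rMat q u w) :=
    fun u hu w hw h' => (hPUW u hu w hw h').mono hPM
  have hWU : ∀ w ∈ W, ∀ u ∈ U, hermForm n F q w u = 0 → MIn M (rMat q w u) := fun w hw u hu h' =>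
    (hUW u hu w hw (herm_eq_zero_comm hF h')).of_mul_eq_one
      (rMat_neg_mul hF (h.left u hu u hu) (h.right w hw w hw) (herm_eq_zero_comm hF h'))
  obtain ⟨g, hgM, hgP⟩ := SetLike.not_le_iff_exists.1 hMP
  have hgI := hMI g hgM
  have hsrc : ∃ v c, v ≠ 0 ∧ hermForm n F q v v = 0 ∧ c ≠ 0 ∧ c + c ^ q = 0 ∧ MIn M (tMat q v c) := by
    by_contra hno
    have hhalf : ∀ X Y : Submodule F (Fin n → F), Halves q X Y →
        (∀ x ∈ X, ∀ y ∈ Y, hermForm n F q x y = 0 → MIn M (rMat q x y)) →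
        ∀ x ∈ X, (g : Matrix (Fin n) (Fin n) F) *ᵥ x ∈ U ∨ (g : Matrix (Fin n) (Fin n) F) *ᵥ x ∈ W := by
      intro X Y hXY hmem x hx
      obtain ⟨p, hp, r, hr, hpr⟩ := hsplit ((g : Matrix (Fin n) (Fin n) F) *ᵥ x)
      by_contra hc
      push Not at hc
      have hp0 : p ≠ 0 := by rintro rfl; rw [zero_add] at hpr; exact hc.2 (hpr ▸ hr)
      have hr0 : r ≠ 0 := by rintro rfl; rw [add_zero] at hpr; exact hc.1 (hpr ▸ hp)
      have hx0 : x ≠ 0 := by rintro rfl; exact hc.1 (by rw [Matrix.mulVec_zero]; exact U.zero_mem)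
      set Z : Submodule F (Fin n → F) := Submodule.span F {x} ⊔ (Y ⊓ LinearMap.ker (hermLeft q x)) with hZ
      set L : Submodule F (Fin n → F) := Z.map (Matrix.toLin' (g : Matrix (Fin n) (Fin n) F)) with hL
      have hZt : ∀ a ∈ Z, ∃ α : F, ∃ y ∈ Y, hermForm n F q x y = 0 ∧ α • x + y = a := by
        intro a ha
        obtain ⟨_, ha', y, hy, rfl⟩ := Submodule.mem_sup.1 ha
        obtain ⟨α, rfl⟩ := Submodule.mem_span_singleton.1 ha'
        exact ⟨α, y, hy.1, herm_eq_zero_comm hF hy.2, rfl⟩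
      refine hno (transv_of_mixed hF hMI hUW h hWU (L := L) ?_ ?_ hp hr hp0 hr0 ?_ ?_)
      · rw [hL, (Submodule.equivMapOfInjective _ (fun a b hab => by
          have := congrArg (((g⁻¹ : GL (Fin n) F) : Matrix (Fin n) (Fin n) F) *ᵥ ·) hab
          simpa [Matrix.toLin'_apply, Matrix.mulVec_mulVec] using this) _).finrank_eq.symm, hZ]
        have h1 := Submodule.finrank_sup_add_finrank_inf_eq Y (LinearMap.ker (hermLeft q x))
        have h2 := LinearMap.finrank_range_add_finrank_ker (hermLeft q x)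
        have h3 := Submodule.finrank_le (LinearMap.range (hermLeft q x))
        rw [Module.finrank_self] at h3
        have h4 := Submodule.finrank_le (Y ⊔ LinearMap.ker (hermLeft q x))
        have h5 := Submodule.finrank_sup_add_finrank_inf_eq (Submodule.span F {x}) (Y ⊓ LinearMap.ker (hermLeft q x))
        have h6 : Submodule.span F {x} ⊓ (Y ⊓ LinearMap.ker (hermLeft q x)) = ⊥ := by
          refine (Submodule.eq_bot_iff _).2 fun a ha => ?_
          obtain ⟨j, hj⟩ := Submodule.mem_span_singleton.1 ha.1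
          exact hXY.inf a (hj ▸ X.smul_mem j hx) ha.2.1
        rw [h6, finrank_bot, finrank_span_singleton hx0] at h5
        have := hXY.symm.dim
        omega
      · rintro _ ⟨a, ha, rfl⟩ _ ⟨a', ha', rfl⟩
        obtain ⟨α, y, hy, hxy, rfl⟩ := hZt a ha
        obtain ⟨β, y', hy', hxy', rfl⟩ := hZt a' ha'
        rw [Matrix.toLin'_apply, Matrix.toLin'_apply, hgI, herm_add_left, herm_add_right hF, herm_add_right hF,
          herm_smul_left, herm_smul_left, herm_smul_right, herm_smul_right, hXY.left x hx x hx,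
          hXY.right y hy y' hy', hxy', herm_eq_zero_comm hF hxy]
        ring
      · exact ⟨x, Submodule.mem_sup_left (Submodule.mem_span_singleton_self x), by rw [Matrix.toLin'_apply, hpr]⟩
      · rintro _ ⟨a, ha, rfl⟩
        obtain ⟨α, y, hy, hxy, rfl⟩ := hZt a ha
        have hxx := hXY.left x hx x hx
        obtain ⟨s, hs, k0, hk0, he⟩ : ∃ s : F, s ≠ 0 ∧ ∃ k0 : F, k0 ^ q = k0 ∧ s * α = k0 := by
          by_cases hα : α = 0
          · exact ⟨1, one_ne_zero, 0, zero_pow_q hF, by rw [hα, mul_zero]⟩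
          · exact ⟨α⁻¹, inv_ne_zero hα, 1, one_pow q, inv_mul_cancel₀ hα⟩
        obtain ⟨k, hk, hke⟩ := hmem x hx (s • y) (Y.smul_mem s hy) (by rw [herm_smul_right, hxy, mul_zero])
        refine ⟨s, hs, g * k * g⁻¹, M.mul_mem (M.mul_mem hgM hk) (M.inv_mem hgM), ?_⟩
        rw [Units.val_mul, Units.val_mul, hke, conj_rMat hF hgI _ hxx, Matrix.toLin'_apply,
          Matrix.mulVec_add, Matrix.mulVec_smul, Matrix.mulVec_smul, ← hpr, smul_add, smul_smul, he, add_comm (k0 • (p + r)),
          rMat_add_smul hF (by rw [hpr, hgI, hxx]) (by rw [herm_smul_right, hpr, hgI, hxy, mul_zero]), hk0, sub_self,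
          tMat_zero hF, mul_one]
    have hwhole : ∀ X : Submodule F (Fin n → F),
        (∀ x ∈ X, (g : Matrix (Fin n) (Fin n) F) *ᵥ x ∈ U ∨ (g : Matrix (Fin n) (Fin n) F) *ᵥ x ∈ W) →
        (∀ x ∈ X, (g : Matrix (Fin n) (Fin n) F) *ᵥ x ∈ U) ∨ (∀ x ∈ X, (g : Matrix (Fin n) (Fin n) F) *ᵥ x ∈ W) := by
      intro X hX
      by_contra hc
      push Not at hc
      obtain ⟨⟨x, hx, hxU⟩, ⟨y, hy, hyW⟩⟩ := hc
      have hxW := (hX x hx).resolve_left hxU
      have hyU := (hX y hy).resolve_right hyW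
      rcases hX (x + y) (X.add_mem hx hy) with h' | h' <;> rw [Matrix.mulVec_add] at h'
      · exact hxU (by simpa using U.sub_mem h' hyU)
      · exact hyW (by simpa using W.sub_mem h' hxW)
    have hboth : ∀ X : Submodule F (Fin n → F), finrank F X < n →
        ¬ ((∀ x ∈ U, (g : Matrix (Fin n) (Fin n) F) *ᵥ x ∈ X) ∧ (∀ x ∈ W, (g : Matrix (Fin n) (Fin n) F) *ᵥ x ∈ X)) := by
      rintro X hlt ⟨h1, h2⟩
      have : (⊤ : Submodule F (Fin n → F)) ≤ X := fun v _ => by
        obtain ⟨p, hp, r, hr, hpr⟩ := hsplit (((g⁻¹ : GL (Fin n) F) : Matrix (Fin n) (Fin n) F) *ᵥ v)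
        have e : v = (g : Matrix (Fin n) (Fin n) F) *ᵥ (((g⁻¹ : GL (Fin n) F) : Matrix (Fin n) (Fin n) F) *ᵥ v) := by
          rw [Matrix.mulVec_mulVec, Units.mul_inv, Matrix.one_mulVec]
        rw [e, ← hpr, Matrix.mulVec_add]
        exact X.add_mem (h1 p hp) (h2 r hr)
      have := Submodule.finrank_mono this
      rw [finrank_top, finrank_fintype_fun_eq_card, Fintype.card_fin] at this
      omega
    refine hgP ((hP g).2 ⟨hMG hgM, ?_⟩)
    rcases hwhole U (hhalf U W h hUW) with h1 | h1 <;> rcases hwhole W (hhalf W U h.symm hWU) with h2 | h2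
    · exact absurd ⟨h1, h2⟩ (hboth U (by omega))
    · exact Or.inl ⟨h1, h2⟩
    · exact Or.inr ⟨h1, h2⟩
    · exact absurd ⟨h1, h2⟩ (hboth W (by omega))
  obtain ⟨s, hsG, hsU, hsW⟩ := h.exists_swap hF
  have hsM : s ∈ M := hPM ((hP s).2 ⟨hsG, Or.inr ⟨hsU, hsW⟩⟩)
  have transport : ∀ X Y : Submodule F (Fin n → F), (∀ y ∈ Y, (s : Matrix (Fin n) (Fin n) F) *ᵥ y ∈ X) →
      (∀ x ∈ X, ∀ t : F, t + t ^ q = 0 → MIn M (tMat q x t)) →
      ∀ y ∈ Y, ∀ t : F, t + t ^ q = 0 → MIn M (tMat q y t) := by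
    intro X Y hYX hX y hy t ht
    obtain ⟨k, hk, e⟩ := hX _ (hYX y hy) t ht
    refine ⟨s⁻¹ * k * s⁻¹⁻¹, M.mul_mem (M.mul_mem (M.inv_mem hsM) hk) (M.inv_mem (M.inv_mem hsM)), ?_⟩
    rw [Units.val_mul, Units.val_mul, e, conj_tMat hF (hMI _ (M.inv_mem hsM)), Matrix.mulVec_mulVec, Units.inv_mul,
      Matrix.one_mulVec]
  obtain ⟨v, c0, hv0, hvv, hc0, hc0t, hv⟩ := hsrc
  obtain ⟨p, hp, r, hr, rfl⟩ := hsplit v
  obtain ⟨hUall, hWall⟩ : (∀ x ∈ U, ∀ t : F, t + t ^ q = 0 → MIn M (tMat q x t)) ∧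
      (∀ x ∈ W, ∀ t : F, t + t ^ q = 0 → MIn M (tMat q x t)) := by
    by_cases hp0 : p = 0
    · have hr0 : r ≠ 0 := by rintro rfl; exact hv0 (by rw [hp0, add_zero])
      have := transv_half_spread hF hMI hWU h.symm hr hp hr0 (by rwa [add_comm r p]) hc0 hc0t (by rwa [add_comm r p])
      exact ⟨transport W U hsU this, this⟩
    · have := transv_half_spread hF hMI hUW h hp hr hp0 hvv hc0 hc0t hv
      exact ⟨this, transport U W hsW this⟩
  have hne : ∀ p ∈ U, ∀ r ∈ W, hermForm n F q r p ≠ 0 → hermForm n F q r p + hermForm n F q r p ^ q = 0 →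
      ∀ t : F, t + t ^ q = 0 → MIn M (tMat q (p + r) t) := by
    intro p hp r hr hne htr t ht
    have hi : (hermForm n F q r p)⁻¹ + (hermForm n F q r p)⁻¹ ^ q = 0 := by
      rw [inv_pow_q, eq_neg_of_add_eq_zero_right htr, inv_neg, add_neg_cancel]
    obtain ⟨k, hk, e⟩ := hUall p hp _ hi
    obtain ⟨k', hk', e'⟩ := hWall r hr t ht
    refine ⟨k * k' * k⁻¹, M.mul_mem (M.mul_mem hk hk') (M.inv_mem hk), ?_⟩
    rw [Units.val_mul, Units.val_mul, e', conj_tMat hF (hMI k hk), e, tMat_mulVec, inv_mul_cancel₀ hne, one_smul,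
      add_comm r p]
  refine le_of_tMat_mem hF h32 fun v t hv ht => ?_
  obtain ⟨p, hp, r, hr, rfl⟩ := hsplit v
  by_cases hr0 : r = 0
  · rw [hr0, add_zero]; exact hUall p hp t ht
  have htr : hermForm n F q r p + hermForm n F q r p ^ q = 0 := by
    rw [← herm_conj hF r p]
    rw [herm_add_left, herm_add_right hF, herm_add_right hF, h.left p hp p hp, h.right r hr r hr] at hv
    linear_combination hv
  by_cases hpr : hermForm n F q r p = 0
  swap
  · exact hne p hp r hr hpr htr t ht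
  obtain ⟨u0, hu0U, -, -, hru0⟩ := h.symm.exists_dual hF (v := r) (p := 0) (r := 0) hr W.zero_mem W.zero_mem
    (by simpa using hr0)
  obtain ⟨δ, hδ0, hδ⟩ := exists_trace_zero_ne_zero hF
  set u := δ ^ q • u0 with hu
  have huU : u ∈ U := U.smul_mem _ hu0U
  have hru : hermForm n F q r u = δ := by rw [hu, herm_smul_right, hru0, mul_one, pow_q_q hF]
  have hd' : hermForm n F q r (p - u) = -δ := by rw [herm_sub_right hF, hpr, hru, zero_sub]
  obtain ⟨k', hk', e'⟩ := hne (p - u) (U.sub_mem hp huU) r hr (by rw [hd']; exact neg_ne_zero.2 hδ0)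
    (by rw [hd', neg_pow_q hF]; linear_combination -hδ) t ht
  obtain ⟨k, hk, e⟩ := hUall u huU δ⁻¹ (by rw [inv_pow_q, eq_neg_of_add_eq_zero_right hδ, inv_neg, add_neg_cancel])
  refine ⟨k * k' * k⁻¹, M.mul_mem (M.mul_mem hk hk') (M.inv_mem hk), ?_⟩
  rw [Units.val_mul, Units.val_mul, e', conj_tMat hF (hMI k hk), e, tMat_mulVec, herm_add_left,
    h.left _ (U.sub_mem hp huU) u huU, hru, zero_add, inv_mul_cancel₀ hδ0, one_smul]
  congr 1
  abel

end CfsgLib.SUSix91
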