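import Mathlib
import Cfsg.Agent.Dickson.Subfield

/-!
Two conjugate homologies of the projective line generate a group in which one of them is inverted.
-/

set_option autoImplicit false
set_option linter.unusedSectionVars false

namespace CfsgLib.SUSix91

open Matrix MulAction CfsgLib.Dickson
open scoped MatrixGroups

theorem alt_four_product (a b : alternatingGroup (Fin 4)) (ha : a ^ 2 ≠ 1) (hb : b ^ 2 ≠ 1)
    (hab : a * b ≠ b * a) : a ^ 3 = 1 ∧ ((a * b) ^ 2 = 1 ∨ (a * b⁻¹) ^ 2 = 1) := by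
  revert a b
  decide +kernel

theorem perm_four_real (a : Equiv.Perm (Fin 4)) : ∃ n, n * a * n⁻¹ = a⁻¹ := by
  revert a
  decide +kernel

theorem alt_five_real (a : alternatingGroup (Fin 5)) : ∃ n, n * a * n⁻¹ = a⁻¹ := by
  revert a
  decide +kernel

theorem dihedral_commute {n : ℕ} (a b : DihedralGroup n) (ha : a ^ 2 ≠ 1) (hb : b ^ 2 ≠ 1) :
    a * b = b * a := by
  cases a with
  | r i =>
    cases b with
    | r j => simp [add_comm]
    | sr j => exact absurd (by rw [sq, DihedralGroup.sr_mul_self]) hb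
  | sr i => exact absurd (by rw [sq, DihedralGroup.sr_mul_self]) ha

section Field

variable {L : Type*} [Field L]

/-- A traceless matrix turning a given one into its adjugate. -/
theorem exists_turn (A : Matrix (Fin 2) (Fin 2) L) :
    ∃ h : Matrix (Fin 2) (Fin 2) L, h.det ≠ 0 ∧ h * A = A.adjugate * h := by
  by_cases hc : A 1 0 = 0
  swap
  · refine ⟨!![1, -(A 0 0 - A 1 1) / A 1 0; 0, -1], by simp [det_fin_two], ?_⟩
    ext i j
    fin_cases i <;> fin_cases j <;> simp [Matrix.mul_apply, Fin.sum_univ_two, adjugate_fin_two] <;>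
      field_simp <;> ring
  by_cases hb : A 0 1 = 0
  swap
  · refine ⟨!![1, 0; -(A 0 0 - A 1 1) / A 0 1, -1], by simp [det_fin_two], ?_⟩
    ext i j
    fin_cases i <;> fin_cases j <;> simp [Matrix.mul_apply, Fin.sum_univ_two, adjugate_fin_two, hc] <;>
      field_simp <;> ring
  refine ⟨!![0, 1; 1, 0], by simp [det_fin_two], ?_⟩
  ext i j
  fin_cases i <;> fin_cases j <;> simp [Matrix.mul_apply, Fin.sum_univ_two, adjugate_fin_two, hc, hb]

theorem exists_form_one [Finite L] (h2 : (2 : L) ≠ 0) {γ : L} (hγ : γ ≠ 0) :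
    ∃ w z : L, γ * w ^ 2 - z ^ 2 = 1 := by
  classical
  have : Fintype L := Fintype.ofFinite L
  have hodd : Fintype.card L % 2 = 1 := FiniteField.odd_card_of_char_ne_two fun h => h2 (by
    haveI := ringChar.of_eq h; exact CharTwo.two_eq_zero)
  obtain ⟨a, b, hab⟩ := FiniteField.exists_root_sum_quadratic
    (f := Polynomial.C γ * Polynomial.X ^ 2 - 1) (g := -Polynomial.X ^ 2)
    (by rw [Polynomial.degree_sub_eq_left_of_degree_lt] <;> simp [Polynomial.degree_C_mul_X_pow, hγ])
    (by simp) hodd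
  exact ⟨a, b, by simp at hab; linear_combination hab⟩

/-- The same with determinant one, away from characteristic two. -/
theorem exists_turn_special [Finite L] (h2 : (2 : L) ≠ 0) (A : Matrix (Fin 2) (Fin 2) L)
    (hA : (A 0 0 - A 1 1) ^ 2 + 4 * A 0 1 * A 1 0 ≠ 0) :
    ∃ h : Matrix (Fin 2) (Fin 2) L, h.det = 1 ∧ h * A = A.adjugate * h := by
  by_cases hc : A 1 0 = 0
  swap
  · set c := A 1 0 with hcdef
    set α := (A 0 0 - A 1 1) / c with hα
    set γ := A 0 1 / c + α ^ 2 / 4 with hγ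
    have h4 : (4 : L) ≠ 0 := by rw [show (4 : L) = 2 * 2 by norm_num]; exact mul_ne_zero h2 h2
    have hγ0 : γ ≠ 0 := by
      rw [hγ, hα]
      intro e
      refine hA ?_
      field_simp at e
      linear_combination e
    obtain ⟨w, z, hwz⟩ := exists_form_one h2 hγ0
    set u := z + α * w / 2 with hu
    refine ⟨!![u, -(u * (A 0 0 - A 1 1) + w * A 0 1) / c; w, -u], ?_, ?_⟩
    · rw [det_fin_two]
      simp only [of_apply, cons_val', cons_val_zero, cons_val_one, empty_val', cons_val_fin_one]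
      rw [← hwz, hu, hγ, hα]
      field_simp
      ring
    · ext i j
      fin_cases i <;> fin_cases j <;> simp [Matrix.mul_apply, Fin.sum_univ_two, adjugate_fin_two, ← hcdef] <;>
        field_simp <;> ring
  by_cases hb : A 0 1 = 0
  · refine ⟨!![0, 1; -1, 0], by simp [det_fin_two], ?_⟩
    ext i j
    fin_cases i <;> fin_cases j <;> simp [Matrix.mul_apply, Fin.sum_univ_two, adjugate_fin_two, hc, hb]
  · have hd : A 0 0 - A 1 1 ≠ 0 := fun e => hA (by rw [e, hc]; ring)
    obtain ⟨v, hv⟩ : ∃ v : L, v * (A 0 1) ^ 2 = -((A 0 1) ^ 2 + 0) := ⟨-1, by ring⟩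
    obtain ⟨w, z, hwz⟩ := exists_form_one h2 (show ((A 0 0 - A 1 1) / A 0 1) ^ 2 / 4 ≠ 0 from
      div_ne_zero (pow_ne_zero 2 (div_ne_zero hd hb)) (by rw [show (4 : L) = 2 * 2 by norm_num]; exact mul_ne_zero h2 h2))
    set α := (A 0 0 - A 1 1) / A 0 1 with hα
    set u := z + α * w / 2 with hu
    refine ⟨!![u, w; -(u * (A 0 0 - A 1 1)) / A 0 1, -u], ?_, ?_⟩
    · rw [det_fin_two]
      simp only [of_apply, cons_val', cons_val_zero, cons_val_one, empty_val', cons_val_fin_one]
      rw [← hwz, hu, hα]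
      have h4 : (4 : L) = 2 * 2 := by norm_num
      rw [h4]
      field_simp
      ring
    · ext i j
      fin_cases i <;> fin_cases j <;> simp [Matrix.mul_apply, Fin.sum_univ_two, adjugate_fin_two, hc] <;>
        field_simp <;> ring

theorem exists_smul_of_mk_eq {g g' : GL (Fin 2) L}
    (e : ProjGenLinGroup.mk g = ProjGenLinGroup.mk g') :
    ∃ s : L, (g : Matrix (Fin 2) (Fin 2) L) = s • (g' : Matrix (Fin 2) (Fin 2) L) := by
  rw [← mul_inv_eq_one, ← map_inv, ← map_mul, mk_eq_one_iff] at e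
  set C := g * g'⁻¹ with hC
  have hg : g = C * g' := by rw [hC, inv_mul_cancel_right]
  refine ⟨C 0 0, ?_⟩
  have hCm : (C : Matrix (Fin 2) (Fin 2) L) = C 0 0 • 1 := by
    ext i j; fin_cases i <;> fin_cases j <;> simp [e.1, e.2.1, e.2.2]
  rw [hg, Units.val_mul]
  conv_lhs => rw [hCm]
  rw [smul_mul_assoc, one_mul]

theorem mk_inverts {g h : GL (Fin 2) L}
    (e : (h : Matrix (Fin 2) (Fin 2) L) * g = (g : Matrix (Fin 2) (Fin 2) L).adjugate * h) :
    ProjGenLinGroup.mk h * ProjGenLinGroup.mk g * (ProjGenLinGroup.mk h)⁻¹ = (ProjGenLinGroup.mk g)⁻¹ := by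
  rw [eq_inv_iff_mul_eq_one, ← map_inv, ← map_mul, ← map_mul, ← map_mul, mk_eq_one_iff]
  have h1 : ((h * g * h⁻¹ * g : GL (Fin 2) L) : Matrix (Fin 2) (Fin 2) L) =
      (g : Matrix (Fin 2) (Fin 2) L).det • 1 := by
    rw [Units.val_mul, Units.val_mul, Units.val_mul, e, mul_assoc ((g : Matrix (Fin 2) (Fin 2) L).adjugate),
      Units.mul_inv, mul_one, adjugate_mul]
  simp [h1]

/-- A matrix with a double eigenvalue has order dividing the characteristic. -/
theorem pow_char_of_disc (p : ℕ) [Fact p.Prime] [CharP L p] (h2 : (2 : L) ≠ 0) (g : GL (Fin 2) L)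
    (hg : (g 0 0 - g 1 1) ^ 2 + 4 * g 0 1 * g 1 0 = 0) : ProjGenLinGroup.mk g ^ p = 1 := by
  set a := (g 0 0 + g 1 1) / 2 with ha
  set N : Matrix (Fin 2) (Fin 2) L := (g : Matrix (Fin 2) (Fin 2) L) - a • 1 with hN
  have hN2 : N * N = 0 := by
    ext i j
    fin_cases i <;> fin_cases j <;> simp [hN, ha, Matrix.mul_apply, Fin.sum_univ_two] <;> field_simp <;>
      first | linear_combination hg | linear_combination -hg | ring
  have key : ∀ m : ℕ, (g : Matrix (Fin 2) (Fin 2) L) ^ m = a ^ m • 1 + ((m : L) * a ^ (m - 1)) • N := by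
    intro m
    induction m with
    | zero => simp
    | succ m ih =>
      rw [pow_succ, ih, show (g : Matrix (Fin 2) (Fin 2) L) = a • 1 + N by rw [hN]; abel]
      simp only [add_mul, mul_add, smul_mul_assoc, mul_smul_comm, one_mul, mul_one, hN2, smul_zero, smul_smul]
      rcases m with _ | m
      · simp
      · simp only [Nat.add_sub_cancel]; push_cast; module
  rw [← map_pow, mk_eq_one_iff]
  simp [Units.val_pow_eq_pow_val, key p, CharP.cast_eq_zero L p]

end Field

variable {F : Type*} [Field F] [Fintype F]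

/-- Every element of the big case is inverted by another, unless its order is the characteristic. -/
theorem big_real (p : ℕ) [Fact p.Prime] [CharP F p] (L : Subfield F) (k : PGL(2, F))
    {H : Subgroup PGL(2, F)}
    (hH : H.map (MulAut.conj k).toMonoidHom = (pglMap L.subtype).range ∨
      (p ≠ 2 ∧ H.map (MulAut.conj k).toMonoidHom = pslImage L.subtype))
    {x : PGL(2, F)} (hx : x ∈ H) (hxp : x ^ p ≠ 1) : ∃ n ∈ H, n * x * n⁻¹ = x⁻¹ := by
  classical
  haveI : CharP L p := L.subtype.charP Subtype.val_injective p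
  set φ := (MulAut.conj k).toMonoidHom
  have back : ∀ m, m ∈ H.map φ → m * φ x * m⁻¹ = (φ x)⁻¹ → ∃ n ∈ H, n * x * n⁻¹ = x⁻¹ := by
    rintro _ ⟨n, hn, rfl⟩ e
    refine ⟨n, hn, (MulAut.conj k).injective ?_⟩
    simpa [φ, map_mul, map_inv] using e
  have hxm : φ x ∈ H.map φ := ⟨x, hx, rfl⟩
  rcases hH with e | ⟨hp, e⟩
  · rw [e] at hxm
    obtain ⟨s, hs⟩ := hxm
    obtain ⟨g, rfl⟩ := ProjGenLinGroup.mk_surjective s
    obtain ⟨h, hd, hh⟩ := exists_turn (g : Matrix (Fin 2) (Fin 2) L)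
    set h' := GeneralLinearGroup.mkOfDetNeZero h hd
    refine back (pglMap L.subtype (ProjGenLinGroup.mk h')) (e ▸ ⟨_, rfl⟩) ?_
    rw [← hs, ← map_inv, ← map_mul, ← map_mul, mk_inverts (g := g) (h := h') hh, map_inv]
  · rw [e] at hxm
    obtain ⟨s, hs⟩ := hxm
    have h2 : (2 : L) ≠ 0 := by
      intro h
      have h' : ((2 : ℕ) : L) = 0 := by exact_mod_cast h
      exact hp ((Nat.prime_dvd_prime_iff_eq Fact.out Nat.prime_two).1 ((CharP.cast_eq_zero_iff L p 2).1 h'))
    set g := SpecialLinearGroup.toGL s with hg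
    have hs' : pglMap L.subtype (ProjGenLinGroup.mk g) = φ x := hs
    have hdisc : (g 0 0 - g 1 1) ^ 2 + 4 * g 0 1 * g 1 0 ≠ 0 := fun hd => hxp (by
      apply (MulAut.conj k).injective
      rw [map_pow, map_one]
      show φ x ^ p = 1
      rw [← hs', ← map_pow, pow_char_of_disc p h2 g hd, map_one])
    obtain ⟨h, hd, hh⟩ := exists_turn_special h2 (g : Matrix (Fin 2) (Fin 2) L) hdisc
    set t : SpecialLinearGroup (Fin 2) L := ⟨h, hd⟩
    refine back (pglMap L.subtype (ProjGenLinGroup.mk (SpecialLinearGroup.toGL t))) (e ▸ ⟨t, rfl⟩) ?_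
    rw [← hs', ← map_inv, ← map_mul, ← map_mul, mk_inverts (g := g) (h := SpecialLinearGroup.toGL t) hh,
      map_inv]

/-- Two conjugate homologies with no common eigenvector: some product exchanges the eigenvectors. -/
theorem exists_exchange [DecidableEq F] (p : ℕ) [Fact p.Prime] [CharP F p] {A B : GL (Fin 2) F} {δ : F}
    (hA00 : A 0 0 = δ) (hA11 : A 1 1 = 1) (hA01 : A 0 1 = 0) (hA10 : A 1 0 = 0) (hδ : δ ^ 2 ≠ 1)
    (hB01 : B 0 1 ≠ 0) (hB10 : B 1 0 ≠ 0) (hBt : B 0 0 + B 1 1 = δ + 1)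
    (h3 : δ ^ 2 + δ + 1 = 0 → δ * B 0 0 + B 1 1 ≠ 0 ∧ δ * B 1 1 + B 0 0 ≠ 0) :
    ∃ N ∈ Subgroup.closure ({A, B} : Set (GL (Fin 2) F)), N 0 0 = 0 := by
  set H := (Subgroup.closure ({A, B} : Set (GL (Fin 2) F))).map ProjGenLinGroup.mk with hH
  set x := ProjGenLinGroup.mk A with hx
  set y := ProjGenLinGroup.mk B with hy
  have hxH : x ∈ H := ⟨A, Subgroup.subset_closure (Or.inl rfl), rfl⟩
  have hyH : y ∈ H := ⟨B, Subgroup.subset_closure (Or.inr rfl), rfl⟩
  have hδ1 : δ ≠ 1 := fun e => hδ (by rw [e, one_pow])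
  have hδn : δ + 1 ≠ 0 := fun e => hδ (by linear_combination (δ - 1) * e)
  have hδ0 : δ ≠ 0 := fun e => by
    have := A.det_ne_zero
    rw [det_fin_two, hA01, hA00, e] at this
    simp at this
  have hx2 : x ^ 2 ≠ 1 := fun e => by
    rw [hx, ← map_pow, mk_eq_one_iff] at e
    simp [sq, Units.val_mul, Matrix.mul_apply, Fin.sum_univ_two, hA00, hA11, hA01, hA10] at e
    exact hδ (by linear_combination e)
  have hy2 : y ^ 2 ≠ 1 := fun e => by
    rw [hy, ← map_pow, mk_eq_one_iff] at e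
    simp [sq, Units.val_mul, Matrix.mul_apply, Fin.sum_univ_two] at e
    have : B 0 1 * (δ + 1) = 0 := by linear_combination e.1 - B 0 1 * hBt
    exact hδn ((mul_eq_zero.1 this).resolve_left hB01)
  have hxy : x * y ≠ y * x := by
    intro e
    rw [hx, hy, ← map_mul, ← map_mul, eq_comm] at e
    obtain ⟨s, h⟩ := exists_smul_of_mk_eq e
    simp only [Units.val_mul] at h
    have h01 := congrFun (congrFun h 0) 1
    have h10 := congrFun (congrFun h 1) 0
    simp [Matrix.mul_apply, Fin.sum_univ_two, hA00, hA11, hA01, hA10] at h01 h10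
    have a1 : (1 - s * δ) * B 0 1 = 0 := by linear_combination h01
    have a2 : (δ - s) * B 1 0 = 0 := by linear_combination h10
    have b1 := (mul_eq_zero.1 a1).resolve_right hB01
    have b2 := (mul_eq_zero.1 a2).resolve_right hB10
    exact hδ (by linear_combination δ * b2 - b1)
  have hxp : x ^ p ≠ 1 := fun e => by
    rw [hx, ← map_pow, mk_eq_one_iff] at e
    have hA : (A : Matrix (Fin 2) (Fin 2) F) = Matrix.diagonal ![δ, 1] := by
      ext i j; fin_cases i <;> fin_cases j <;> simp [hA00, hA11, hA01, hA10]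
    simp [hA, Matrix.diagonal_pow] at e
    exact hδ1 (frobenius_inj F p (by simpa [frobenius_def] using e))
  have finish : (∃ n ∈ H, n * x * n⁻¹ = x⁻¹) →
      ∃ N ∈ Subgroup.closure ({A, B} : Set (GL (Fin 2) F)), N 0 0 = 0 := by
    rintro ⟨_, ⟨N, hN, rfl⟩, e⟩
    refine ⟨N, hN, ?_⟩
    rw [hx, ← map_inv, ← map_mul, ← map_mul, ← map_inv] at e
    obtain ⟨s, hs⟩ := exists_smul_of_mk_eq e
    have hA' := congrArg (fun M : Matrix (Fin 2) (Fin 2) F =>
      (A : Matrix (Fin 2) (Fin 2) F) * M * (N : Matrix (Fin 2) (Fin 2) F)) hs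
    simp only [Units.val_mul, smul_mul_assoc, mul_smul_comm, ← mul_assoc, Units.mul_inv, one_mul,
      Units.inv_mul_cancel_right] at hA'
    have h00 := congrFun (congrFun hA' 0) 0
    have h01 := congrFun (congrFun hA' 0) 1
    have h11 := congrFun (congrFun hA' 1) 1
    simp [Matrix.mul_apply, Fin.sum_univ_two, hA00, hA11, hA01, hA10] at h00 h01 h11
    by_contra hN0
    have b1 : δ * δ = s := mul_right_cancel₀ hN0 (by linear_combination h00)
    have b2 : N 1 1 = 0 := by
      have : (1 - s) * N 1 1 = 0 := by linear_combination h11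
      exact (mul_eq_zero.1 this).resolve_left fun h => hδ (by linear_combination b1 - h)
    have b3 : N 0 1 = 0 := by
      have : (δ - s) * N 0 1 = 0 := h01.elim (fun h => by rw [h, sub_self, zero_mul]) fun h => by rw [h, mul_zero]
      exact (mul_eq_zero.1 this).resolve_left fun h => hδ1 (mul_left_cancel₀ hδ0 (by linear_combination b1 - h))
    have := N.det_ne_zero
    rw [det_fin_two, b2, b3] at this
    simp at this
  have iso_real : ∀ {T : Type} [Group T], (∀ t : T, ∃ n, n * t * n⁻¹ = t⁻¹) → (H ≃* T) →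
      ∃ n ∈ H, n * x * n⁻¹ = x⁻¹ := by
    intro T _ hT i
    obtain ⟨n, hn⟩ := hT (i ⟨x, hxH⟩)
    refine ⟨_, (i.symm n).2, ?_⟩
    have := congrArg i.symm hn
    rw [map_mul, map_mul, map_inv, map_inv, i.symm_apply_apply] at this
    exact congrArg Subtype.val this
  classical
  rcases classify_finite' p H with ⟨z, hz⟩ | ⟨hc, -⟩ | ⟨n, -, -, ⟨i⟩⟩ | ⟨-, ⟨i⟩⟩ | ⟨-, ⟨i⟩⟩ | ⟨-, ⟨i⟩⟩ |
    ⟨L, k, hL⟩
  · exfalso
    have h1 := hz x hxH
    have h2 := hz y hyH
    rw [hx, mk_smul] at h1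
    rw [hy, mk_smul] at h2
    cases z with
    | infty => exact hB10 (OnePoint.smul_infty_eq_self_iff.1 h2)
    | coe c =>
      rw [smul_coe_eq_self_iff hA10, hA00, hA11, hA01, add_zero] at h1
      have hc0 := (mul_eq_zero.1 h1).resolve_left (sub_ne_zero.2 hδ1)
      subst hc0
      rw [OnePoint.smul_some_eq_ite] at h2
      split_ifs at h2 with h3'
      · exact OnePoint.infty_ne_coe _ h2
      · rw [OnePoint.coe_eq_coe] at h2
        simp at h2 h3'
        rcases h2 with h | h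
        · exact hB01 h
        · exact h3' h
  · exact absurd (congrArg Subtype.val ((IsCyclic.commGroup (α := H)).mul_comm ⟨x, hxH⟩ ⟨y, hyH⟩)) hxy
  · refine absurd ?_ hxy
    have h := dihedral_commute (i ⟨x, hxH⟩) (i ⟨y, hyH⟩)
      (by rw [← map_pow, ne_eq, MulEquiv.map_eq_one_iff]; exact fun e => hx2 (congrArg Subtype.val e))
      (by rw [← map_pow, ne_eq, MulEquiv.map_eq_one_iff]; exact fun e => hy2 (congrArg Subtype.val e))
    rw [← map_mul, ← map_mul] at h
    exact congrArg Subtype.val (i.injective h)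
  · exfalso
    obtain ⟨a3, hp⟩ := alt_four_product (i ⟨x, hxH⟩) (i ⟨y, hyH⟩)
      (by rw [← map_pow, ne_eq, MulEquiv.map_eq_one_iff]; exact fun e => hx2 (congrArg Subtype.val e))
      (by rw [← map_pow, ne_eq, MulEquiv.map_eq_one_iff]; exact fun e => hy2 (congrArg Subtype.val e))
      (fun e => hxy (congrArg Subtype.val (i.injective (a₁ := ⟨x, hxH⟩ * ⟨y, hyH⟩) (a₂ := ⟨y, hyH⟩ * ⟨x, hxH⟩)
        (by rw [map_mul, map_mul]; exact e))))
    have e3 : x ^ 3 = 1 := by
      rw [← map_pow, MulEquiv.map_eq_one_iff] at a3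
      exact congrArg Subtype.val a3
    rw [hx, ← map_pow, mk_eq_one_iff] at e3
    simp [pow_succ, Units.val_mul, Matrix.mul_apply, Fin.sum_univ_two, hA00, hA11, hA01, hA10] at e3
    have hq : δ ^ 2 + δ + 1 = 0 :=
      (mul_eq_zero.1 (show (δ - 1) * (δ ^ 2 + δ + 1) = 0 by linear_combination e3)).resolve_left
        (sub_ne_zero.2 hδ1)
    obtain ⟨n1, n2⟩ := h3 hq
    have tr0 : ∀ C : GL (Fin 2) F, ProjGenLinGroup.mk C ^ 2 = 1 → C 0 1 ≠ 0 → C 0 0 + C 1 1 = 0 := by
      intro C e hC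
      rw [← map_pow, mk_eq_one_iff] at e
      simp [sq, Units.val_mul, Matrix.mul_apply, Fin.sum_univ_two] at e
      exact (mul_eq_zero.1 (show C 0 1 * (C 0 0 + C 1 1) = 0 by linear_combination e.1)).resolve_left hC
    rcases hp with e | e
    · rw [← map_mul, ← map_pow, MulEquiv.map_eq_one_iff] at e
      have e' : (x * y) ^ 2 = 1 := congrArg Subtype.val e
      rw [hx, hy, ← map_mul] at e'
      have := tr0 _ e' (by simp [Matrix.mul_apply, Fin.sum_univ_two, hA00, hA01, hδ0, hB01])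
      simp [Matrix.mul_apply, Fin.sum_univ_two, hA00, hA11, hA01, hA10] at this
      exact n1 this
    · rw [← map_inv, ← map_mul, ← map_pow, MulEquiv.map_eq_one_iff] at e
      have e' : (x * y⁻¹) ^ 2 = 1 := congrArg Subtype.val e
      rw [hx, hy, ← map_inv, ← map_mul] at e'
      have hd := B.det_ne_zero
      have hinv : ((B⁻¹ : GL (Fin 2) F) : Matrix (Fin 2) (Fin 2) F) =
          (B : Matrix (Fin 2) (Fin 2) F).det⁻¹ • (B : Matrix (Fin 2) (Fin 2) F).adjugate := by
        rw [Matrix.coe_units_inv, Matrix.inv_def, Ring.inverse_eq_inv']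
      have := tr0 _ e' (by
        simp [hinv, adjugate_fin_two, Matrix.mul_apply, Fin.sum_univ_two, hA00, hA01, hδ0, hB01, hd])
      simp [hinv, adjugate_fin_two, Matrix.mul_apply, Fin.sum_univ_two, hA00, hA11, hA01, hA10] at this
      exact n2 ((mul_eq_zero.1 (show (B : Matrix (Fin 2) (Fin 2) F).det⁻¹ * (δ * B 1 1 + B 0 0) = 0 by
        linear_combination this)).resolve_left (inv_ne_zero hd))
  · exact finish (iso_real perm_four_real i)
  · exact finish (iso_real alt_five_real i)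
  · exact finish (big_real p L k hL hxH hxp)

end CfsgLib.SUSix91
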