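import Mathlib
import Cfsg.Agent.SUSix91.MonoBase
import Cfsg.Agent.SUSix91.Invert

/-!
The plane of an axis and a reflection vector yields an element fixing an axis.
-/

set_option autoImplicit false
set_option linter.unusedSectionVars false

namespace CfsgLib.SUSix91

open Matrix CfsgLib.UnitMono CfsgLib.TransvGL CfsgLib.MonoBasics CfsgLib.UnitCentres CfsgLib.PseudoRefl
  CfsgLib.CircleSums

variable {ι : Type} [Fintype ι] [DecidableEq ι] {F : Type*} [Field F] [Fintype F]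
variable {q : ℕ} {σ : F ≃+* F} {M : Subgroup (GL ι F)}

local notation "ax" i:max => (Pi.single i (1 : F) : ι → F)

/-- The matrices on a coordinate plane induced by a subgroup. -/
def planeGroup (G : Subgroup (GL ι F)) (e w : ι → F) : Subgroup (GL (Fin 2) F) where
  carrier := {A | ∃ y ∈ G, ∀ c : Fin 2 → F, (y : Matrix ι ι F) *ᵥ (c 0 • e + c 1 • w) =
    ((A : Matrix (Fin 2) (Fin 2) F) *ᵥ c) 0 • e + ((A : Matrix (Fin 2) (Fin 2) F) *ᵥ c) 1 • w}
  one_mem' := ⟨1, G.one_mem, fun c => by rw [Units.val_one, one_mulVec, Units.val_one, one_mulVec]⟩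
  mul_mem' := by
    rintro A B ⟨y, hy, hA⟩ ⟨z, hz, hB⟩
    refine ⟨y * z, G.mul_mem hy hz, fun c => ?_⟩
    rw [Units.val_mul, ← mulVec_mulVec, hB, hA, Units.val_mul, mulVec_mulVec]
  inv_mem' := by
    rintro A ⟨y, hy, hA⟩
    refine ⟨y⁻¹, G.inv_mem hy, fun c => ?_⟩
    have h := hA (((A⁻¹ : GL (Fin 2) F) : Matrix (Fin 2) (Fin 2) F) *ᵥ c)
    rw [mulVec_inv_mulVec] at h
    rw [← h, inv_mulVec_mulVec]

theorem plane_fix (hO : Over q σ M) {η : Fˣ} (hη : Cir σ (η : F))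
    (hδ2 : ((η ^ Fintype.card ι : Fˣ) : F) ^ 2 ≠ 1)
    {g : GL ι F} (hg : g ∈ kz σ M) {u : ι → F} {a : ι} (hgu : (g : Matrix ι ι F) *ᵥ ax a = u)
    {k : ι} (hk0 : u k ≠ 0) (hk1 : u k * σ (u k) ≠ 1)
    (h3 : ((η ^ Fintype.card ι : Fˣ) : F) ^ 2 + ((η ^ Fintype.card ι : Fˣ) : F) + 1 = 0 →
      3 * (u k * σ (u k)) ≠ 1 ∧ 3 * (u k * σ (u k)) ≠ 2)
    {i j l : ι} (hik : i ≠ k) (hjk : j ≠ k) (hlk : l ≠ k) (hij : i ≠ j) (hli : l ≠ i) (hlj : l ≠ j)
    (hi : u i ≠ 0) (hj : u j ≠ 0) (hl : u l ≠ 0) : FixAx M := by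
  classical
  obtain ⟨p, hp⟩ := CharP.exists F
  haveI : Fact p.Prime := ⟨CharP.char_is_prime F p⟩
  have hf := hO.std.isUnitary (ι := ι)
  have hu : sf σ u u = 1 := by rw [← hgu, hg.1, sf_ax_self]
  set δ : Fˣ := η ^ Fintype.card ι with hδ
  set D : F := (δ : F) - 1 with hD
  have hD0 : D ≠ 0 := fun e => hδ2 (by rw [sub_eq_zero.1 e, one_pow])
  set Nk := u k * σ (u k) with hNk
  set w : ι → F := u - u k • ax k with hw
  have hwk : w k = 0 := by simp [hw]
  have hwo : ∀ p, p ≠ k → w p = u p := fun p hp => by simp [hw, hp]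
  have hue : u = u k • ax k + w := by rw [hw]; abel
  have hwu : sf σ w u = 1 - Nk := by
    rw [hw, UnitCentres.sub_left hf, hf.smul_left, sf_ax_left, hu]
  set A : GL (Fin 2) F := GeneralLinearGroup.mkOfDetNeZero !![(δ : F), 0; 0, 1] (by simp [det_fin_two])
  set B : GL (Fin 2) F := GeneralLinearGroup.mkOfDetNeZero
    !![1 + D * Nk, D * (1 - Nk) * u k; D * σ (u k), 1 + D * (1 - Nk)] (by
      rw [det_fin_two]
      simp only [of_apply, cons_val', cons_val_zero, cons_val_one, empty_val', cons_val_fin_one]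
      rw [show (1 + D * Nk) * (1 + D * (1 - Nk)) - D * (1 - Nk) * u k * (D * σ (u k)) = (δ : F) by
        rw [hNk, hD]; ring]
      exact δ.ne_zero)
  have hclos : Subgroup.closure ({A, B} : Set (GL (Fin 2) F)) ≤ planeGroup (kz σ M) (ax k) w := by
    rw [Subgroup.closure_le]
    rintro _ (rfl | rfl)
    · refine ⟨_, refl_ax_mem hO hη k, fun c => ?_⟩
      rw [uRefl_mulVec, sf_ax_right]
      simp [A, GeneralLinearGroup.mkOfDetNeZero, Matrix.mulVec, dotProduct, Fin.sum_univ_two, hwk, ← hδ]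
      module
    · refine ⟨_, refl_mem hO hη hg hgu hu, fun c => ?_⟩
      rw [uRefl_mulVec, hf.add_left, hf.smul_left, hf.smul_left, sf_ax_left, hwu]
      simp [B, GeneralLinearGroup.mkOfDetNeZero, Matrix.mulVec, dotProduct, Fin.sum_univ_two, ← hδ, ← hD]
      rw [hNk]
      generalize σ (u k) = s
      have hue' := hue
      generalize u k = uk at hue' ⊢
      conv_lhs => rw [hue']
      simp only [smul_add, smul_smul]
      module
  have h1N : (1 : F) - Nk ≠ 0 := sub_ne_zero.2 (Ne.symm hk1)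
  obtain ⟨N, hN, hN00⟩ := exists_exchange p (A := A) (B := B) (δ := (δ : F))
    (by simp [A, GeneralLinearGroup.mkOfDetNeZero]) (by simp [A, GeneralLinearGroup.mkOfDetNeZero])
    (by simp [A, GeneralLinearGroup.mkOfDetNeZero]) (by simp [A, GeneralLinearGroup.mkOfDetNeZero]) hδ2
    (by simp [B, GeneralLinearGroup.mkOfDetNeZero, hD0, h1N, hk0])
    (by simp [B, GeneralLinearGroup.mkOfDetNeZero, hD0, hk0])
    (by simp [B, GeneralLinearGroup.mkOfDetNeZero, hD]; ring)
    (fun hq => by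
      have hq' := h3 hq
      simp [B, GeneralLinearGroup.mkOfDetNeZero]
      refine ⟨fun e => hq'.2 ?_, fun e => hq'.1 ?_⟩
      · refine mul_left_cancel₀ δ.ne_zero ?_
        rw [hD] at e
        linear_combination Nk * hq - e
      · refine mul_left_cancel₀ δ.ne_zero ?_
        rw [hD] at e
        linear_combination e + (Nk - 1) * hq)
  obtain ⟨y, hy, hye⟩ := hclos hN
  set z : ι → F := (y : Matrix ι ι F) *ᵥ ax k with hz
  have hze : z = (N : Matrix (Fin 2) (Fin 2) F) 1 0 • w := by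
    have := hye ![1, 0]
    simp [Matrix.mulVec, dotProduct, Fin.sum_univ_two, hN00] at this
    rw [hz, Matrix.mulVec_single_one]
    exact this
  have hzz : sf σ z z = 1 := by rw [hz, hy.1, sf_ax_self]
  set c := (N : Matrix (Fin 2) (Fin 2) F) 1 0
  have hc : c ≠ 0 := fun e => by
    rw [hze, e, zero_smul] at hzz
    simp [sf] at hzz
  have hzp : ∀ p, p ≠ k → u p ≠ 0 → z p ≠ 0 := fun p hp h => by
    rw [hze, Pi.smul_apply, smul_eq_mul, hwo p hp]; exact mul_ne_zero hc h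
  refine fix_of_refl hO hzz (δ := δ) (fun e => hδ2 (by rw [e, one_pow])) (refl_mem hO hη hy hz.symm hzz)
    (fun b => refl_ax_mem hO hη b) (a := k) ?_ hij (hzp i hik hi) (hzp j hjk hj)
    (Or.inr ⟨l, hli, hlj, hzp l hlk hl⟩)
  rw [hze, Pi.smul_apply, smul_eq_mul, hwk, mul_zero]

end CfsgLib.SUSix91
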