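import Mathlib
import Cfsg.Agent.SUSix91.MonoPlane
import Cfsg.Agent.SUSix91.MonoCases

/-!
The circle generator, norms in the fixed field and columns of reflection products.
-/

set_option autoImplicit false
set_option linter.unusedSectionVars false

namespace CfsgLib.SUSix91

open Matrix CfsgLib.UnitMono CfsgLib.TransvGL CfsgLib.MonoBasics CfsgLib.UnitCentres CfsgLib.PseudoRefl
  CfsgLib.CircleSums

variable {ι : Type} [Fintype ι] [DecidableEq ι] {F : Type*} [Field F] [Fintype F]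
variable {q : ℕ} {σ : F ≃+* F} {M : Subgroup (GL ι F)}

local notation "ax" i:max => (Pi.single i (1 : F) : ι → F)

theorem exists_circle_gen (hS : Std q σ) : ∃ ε : Fˣ, Cir σ (ε : F) ∧ orderOf ε = q + 1 := by
  obtain ⟨g, hg⟩ := IsCyclic.exists_generator (α := Fˣ)
  have h2 := hS.two_le
  have hc : orderOf g = q ^ 2 - 1 := by
    rw [orderOf_eq_card_of_forall_mem_zpowers hg, Nat.card_units, Nat.card_eq_fintype_card, hS.card]
  have he : q ^ 2 - 1 = (q - 1) * (q + 1) := by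
    rw [show q ^ 2 - 1 = q ^ 2 - 1 ^ 2 by simp, Nat.sq_sub_sq, mul_comm]
  have ho : orderOf (g ^ (q - 1)) = q + 1 := by
    rw [orderOf_pow' g (by omega), hc, he, Nat.gcd_mul_right_left, Nat.mul_div_cancel_left _ (by omega)]
  refine ⟨g ^ (q - 1), ?_, ho⟩
  have h := pow_orderOf_eq_one (g ^ (q - 1))
  rw [ho] at h
  show _ * σ _ = 1
  rw [hS.frob, ← pow_succ', ← Units.val_pow_eq_pow_val, h, Units.val_one]

theorem val_pow_ne_one {ε : Fˣ} {k : ℕ} (h : ¬ orderOf ε ∣ k) : (ε : F) ^ k ≠ 1 := fun e =>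
  h (orderOf_dvd_of_pow_eq_one (Units.ext (by rw [Units.val_pow_eq_pow_val, e, Units.val_one])))

theorem card_small {q : ℕ} (hd : (q + 1) / Nat.gcd (q + 1) 6 ≤ 3) :
    q ∈ ({0, 1, 2, 3, 5, 8, 11, 17} : Finset ℕ) := by
  have hq : q < 18 := by
    have h6 : Nat.gcd (q + 1) 6 ≤ 6 := Nat.le_of_dvd (by norm_num) (Nat.gcd_dvd_right _ _)
    have h := Nat.div_mul_cancel (Nat.gcd_dvd_left (q + 1) 6)
    nlinarith
  have key : ∀ n < 18, (n + 1) / Nat.gcd (n + 1) 6 ≤ 3 → n ∈ ({0, 1, 2, 3, 5, 8, 11, 17} : Finset ℕ) := by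
    decide +kernel
  exact key q hq hd

/-- Away from the small fields the sixth powers of the circle reach order four. -/
theorem generic_order (hS : Std q σ) (h3 : 3 ≤ q) (hq : q ∉ ({3, 5, 8, 11, 17} : Finset ℕ)) :
    ∃ η : Fˣ, Cir σ (η : F) ∧ ((η ^ 6 : Fˣ) : F) ^ 2 ≠ 1 ∧ ((η ^ 6 : Fˣ) : F) ^ 3 ≠ 1 := by
  obtain ⟨ε, hε, ho⟩ := exists_circle_gen hS
  have hd : orderOf (ε ^ 6) = (q + 1) / Nat.gcd (q + 1) 6 := by rw [orderOf_pow, ho]
  have h4 : 4 ≤ orderOf (ε ^ 6) := by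
    by_contra hlt
    have h := card_small (q := q) (by omega)
    simp only [Finset.mem_insert, Finset.mem_singleton] at h hq
    omega
  exact ⟨ε, hε, val_pow_ne_one fun h => absurd (Nat.le_of_dvd (by norm_num) h) (by omega),
    val_pow_ne_one fun h => absurd (Nat.le_of_dvd (by norm_num) h) (by omega)⟩

theorem char_eq_of_prime (hS : Std q σ) (hq : q.Prime) : CharP F q := by
  obtain ⟨p, hp⟩ := CharP.exists F
  obtain ⟨j, hpr, hj⟩ := FiniteField.card F p
  have hd : p ∣ q ^ 2 := by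
    rw [← hS.card, hj]; exact dvd_pow_self p j.ne_zero
  obtain rfl := (Nat.prime_dvd_prime_iff_eq hpr hq).1 (hpr.dvd_of_dvd_pow hd)
  exact hp

theorem two_eq_zero_eight (hS : Std 8 σ) : (2 : F) = 0 := by
  obtain ⟨p, hp⟩ := CharP.exists F
  obtain ⟨j, hpr, hj⟩ := FiniteField.card F p
  have hd : p ∣ 2 ^ 6 := by
    rw [show 2 ^ 6 = 8 ^ 2 by norm_num, ← hS.card, hj]; exact dvd_pow_self p j.ne_zero
  obtain rfl := (Nat.prime_dvd_prime_iff_eq hpr Nat.prime_two).1 (hpr.dvd_of_dvd_pow hd)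
  exact_mod_cast CharP.cast_eq_zero F 2

theorem cast_ne_cast {p : ℕ} [CharP F p] {a b : ℕ} (h : a % p ≠ b % p) : (a : F) ≠ (b : F) :=
  fun e => h ((CharP.natCast_eq_natCast F p).1 e)

theorem cast_eq_cast {p : ℕ} [CharP F p] {a b : ℕ} (h : a % p = b % p) : (a : F) = (b : F) :=
  (CharP.natCast_eq_natCast F p).2 h

/-- Fixed elements are natural numbers when the field has prime square order. -/
theorem fixed_cast (hS : Std q σ) [CharP F q] {x : F} (hx : σ x = x) : ∃ n < q, (n : F) = x := by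
  classical
  have hsub : (Finset.range q).image (fun n : ℕ => (n : F)) ⊆ Finset.univ.filter fun z : F => σ z = z := by
    intro z hz
    obtain ⟨n, -, rfl⟩ := Finset.mem_image.1 hz
    rw [Finset.mem_filter]
    exact ⟨Finset.mem_univ _, map_natCast σ n⟩
  have he := Finset.eq_of_subset_of_card_le hsub (by
    rw [card_fixed hS.card hS.frob, Finset.card_image_of_injOn, Finset.card_range]
    intro a ha b hb e
    rw [Finset.coe_range, Set.mem_Iio] at ha hb
    have := (CharP.natCast_eq_natCast F q).1 e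
    rwa [Nat.ModEq, Nat.mod_eq_of_lt ha, Nat.mod_eq_of_lt hb] at this)
  have : x ∈ (Finset.range q).image (fun n : ℕ => (n : F)) := by
    rw [he, Finset.mem_filter]; exact ⟨Finset.mem_univ _, hx⟩
  simpa using this

/-- The norms of a unit vector with all coordinates non-zero, as natural numbers. -/
theorem exists_nat_nrm (hS : Std q σ) [CharP F q] {u : ι → F} (hu : sf σ u u = 1) (hne : ∀ i, u i ≠ 0) :
    ∃ N : ι → ℕ, (∀ i, 1 ≤ N i ∧ N i < q) ∧ (∀ i, nrm σ u i = (N i : F)) ∧ (∑ i, N i) % q = 1 := by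
  choose N hN hNu using fun i => fixed_cast hS (norm_fixed hS.card hS.frob (u i))
  refine ⟨N, fun i => ⟨Nat.one_le_iff_ne_zero.2 fun e => ?_, hN i⟩, fun i => (hNu i).symm, ?_⟩
  · have := hNu i
    rw [e, Nat.cast_zero] at this
    exact mul_ne_zero (hne i) (by simpa using hne i) this.symm
  · have h : ((∑ i, N i : ℕ) : F) = ((1 : ℕ) : F) := by
      rw [Nat.cast_sum, Nat.cast_one, ← hu]
      exact Finset.sum_congr rfl fun i _ => hNu i
    have := (CharP.natCast_eq_natCast F q).1 h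
    rwa [Nat.ModEq, Nat.one_mod_eq_one.2 (by have := hS.two_le; omega)] at this

theorem three_avoid (hn : Fintype.card ι = 6) (s : Finset ι) (hs : s.card ≤ 3) :
    ∃ i j l, i ∉ s ∧ j ∉ s ∧ l ∉ s ∧ i ≠ j ∧ l ≠ i ∧ l ≠ j := by
  have h : 2 < sᶜ.card := by rw [Finset.card_compl]; omega
  obtain ⟨a, ha, b, hb, c, hc, hab, hac, hbc⟩ := Finset.two_lt_card.1 h
  rw [Finset.mem_compl] at ha hb hc
  exact ⟨a, b, c, ha, hb, hc, hab, Ne.symm hac, Ne.symm hbc⟩

variable (hO : Over q σ M) (hn : Fintype.card ι = 6)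
include hO hn

/-- A column of a product of a reflection with an element normalising the group. -/
theorem refl_col {η : Fˣ} (hη : Cir σ (η : F)) {δ : Fˣ} (hδ : η ^ 6 = δ) {g : GL ι F} (hg : g ∈ kz σ M)
    {u : ι → F} {a : ι} (hgu : (g : Matrix ι ι F) *ᵥ ax a = u) (b : ι) :
    ∃ g' ∈ kz σ M, (g' : Matrix ι ι F) *ᵥ ax b = ax b + (((δ : F) - 1) * σ (u b)) • u := by
  have hu : sf σ u u = 1 := by rw [← hgu, hg.1, sf_ax_self]
  refine ⟨_, refl_mem hO hη hg hgu hu, ?_⟩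
  rw [uRefl_mulVec, sf_ax_left, hn, hδ]

/-- A wide column with a zero, when the sixth powers of the circle are not all one. -/
theorem fix_of_zero_wide {η : Fˣ} (hη : Cir σ (η : F)) (hδ : ((η ^ 6 : Fˣ) : F) ≠ 1) {g : GL ι F}
    (hg : g ∈ kz σ M) {u : ι → F} {b : ι} (hgu : (g : Matrix ι ι F) *ᵥ ax b = u) {a : ι} (ha : u a = 0)
    {i j l : ι} (hij : i ≠ j) (hli : l ≠ i) (hlj : l ≠ j) (hi : u i ≠ 0) (hj : u j ≠ 0) (hl : u l ≠ 0) :
    FixAx M := by
  have hu : sf σ u u = 1 := by rw [← hgu, hg.1, sf_ax_self]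
  exact fix_of_refl hO hu (δ := η ^ Fintype.card ι) (by rwa [hn]) (refl_mem hO hη hg hgu hu)
    (fun c => refl_ax_mem hO hη c) ha hij hi hj (Or.inr ⟨l, hli, hlj, hl⟩)

end CfsgLib.SUSix91
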