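import Mathlib
import Cfsg.Agent.SUSix91.MonoArith
import Cfsg.Agent.SUSix91.MonoTables

/-!
A column without zero entries yields an element fixing an axis: case by case on the field.
-/

set_option autoImplicit false
set_option linter.unusedSectionVars false

namespace CfsgLib.SUSix91

open Matrix CfsgLib.UnitMono CfsgLib.TransvGL CfsgLib.MonoBasics CfsgLib.UnitCentres CfsgLib.PseudoRefl
  CfsgLib.CircleSums

variable {ι : Type} [Fintype ι] [DecidableEq ι] {F : Type*} [Field F] [Fintype F]
variable {q : ℕ} {σ : F ≃+* F} {M : Subgroup (GL ι F)}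

local notation "ax" i:max => (Pi.single i (1 : F) : ι → F)

/-- The coordinate of `ax b + c • u` at its centre. -/
theorem col_self (u : ι → F) (b : ι) (c : F) : (ax b + c • u : ι → F) b = 1 + c * u b := by simp

theorem col_other (u : ι → F) {b i : ι} (h : i ≠ b) (c : F) : (ax b + c • u : ι → F) i = c * u i := by
  simp [h]

theorem generic_col (hO : Over q σ M) (hn : Fintype.card ι = 6) {η : Fˣ} (hη : Cir σ (η : F))
    (h2 : ((η ^ 6 : Fˣ) : F) ^ 2 ≠ 1) (h3 : ((η ^ 6 : Fˣ) : F) ^ 3 ≠ 1) {g : GL ι F}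
    (hg : g ∈ kz σ M) {u : ι → F} {a : ι} (hgu : (g : Matrix ι ι F) *ᵥ ax a = u) (hne : ∀ i, u i ≠ 0) :
    FixAx M := by
  have hS := hO.std
  have hu : sf σ u u = 1 := by rw [← hgu, hg.1, sf_ax_self]
  set δ := η ^ 6 with hδ
  have hq3 : (δ : F) ^ 2 + (δ : F) + 1 ≠ 0 := fun e => h3 (by linear_combination ((δ : F) - 1) * e)
  have finish : ∀ (g' : GL ι F), g' ∈ kz σ M → ∀ (w : ι → F) (c : ι),
      (g' : Matrix ι ι F) *ᵥ ax c = w → ∀ k, w k ≠ 0 → w k * σ (w k) ≠ 1 →
      (∀ i, i ≠ c → w i ≠ 0) → FixAx M := by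
    intro g' hg' w c hw k hk hk1 hw0
    obtain ⟨i, j, l, hi, hj, hl, hij, hli, hlj⟩ := three_avoid hn {k, c}
      ((Finset.card_le_two).trans (by norm_num))
    simp only [Finset.mem_insert, Finset.mem_singleton, not_or] at hi hj hl
    refine plane_fix hO hη (by rwa [hn]) hg' hw hk hk1 (fun e => absurd e (by rwa [hn])) hi.1 hj.1 hl.1
      hij hli hlj (hw0 i hi.2) (hw0 j hj.2) (hw0 l hl.2)
  by_cases hex : ∃ k, u k * σ (u k) ≠ 1
  · obtain ⟨k, hk⟩ := hex
    exact finish g hg u a hgu k (hne k) hk fun i _ => hne i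
  push Not at hex
  obtain ⟨ζ, hζ, hζE, hζ1⟩ : ∃ ζ : Fˣ, Cir σ (ζ : F) ∧
      (((ζ ^ 6 : Fˣ) : F) - 1) * σ (((ζ ^ 6 : Fˣ) : F) - 1) ≠ 1 ∧ ((ζ ^ 6 : Fˣ) : F) ≠ 1 := by
    have hd : Cir σ (δ : F) := by rw [hδ, Units.val_pow_eq_pow_val, ← zpow_natCast]; exact hη.zpow _
    have hd1 : (δ : F) ≠ 1 := fun e => h2 (by rw [e, one_pow])
    by_cases hE : ((δ : F) - 1) * σ ((δ : F) - 1) = 1
    · refine ⟨η * η, by rw [Units.val_mul]; exact hη.mul hη, ?_, ?_⟩ <;>
        rw [mul_pow, ← hδ, Units.val_mul]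
      · intro hE2
        rw [map_sub, map_one] at hE hE2
        rw [map_mul] at hE2
        rw [hd.conj_eq] at hE hE2
        have hd0 := δ.ne_zero
        field_simp at hE hE2
        have e1 : (δ : F) ^ 2 = δ - 1 := by linear_combination -hE
        have e2 : (δ : F) ^ 4 = -δ := by linear_combination ((δ : F) ^ 2 + δ) * e1
        have e4 : (2 : F) * (1 - δ) = 0 := by linear_combination -hE2 - e2 + e1
        rcases mul_eq_zero.1 e4 with e | e
        · refine h3 ?_
          linear_combination ((δ : F) + 1) * e1 + (-1 : F) * e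
        · exact hd1 (sub_eq_zero.1 e).symm
      · rw [← sq]; exact h2
    · exact ⟨η, hη, by rwa [← hδ], by rwa [← hδ]⟩
  obtain ⟨g', hg', hcol⟩ := refl_col hO hn hζ rfl hg hgu a
  set D : F := ((ζ ^ 6 : Fˣ) : F) - 1
  have hD0 : D * σ (u a) ≠ 0 := mul_ne_zero (sub_ne_zero.2 hζ1) (by simpa using hne a)
  obtain ⟨i, -, -, hi, -, -, -, -, -⟩ := three_avoid hn {a} (by simp)
  rw [Finset.mem_singleton] at hi
  refine finish g' hg' _ a hcol i ?_ ?_ fun p hp => ?_
  · rw [col_other u hi]; exact mul_ne_zero hD0 (hne i)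
  · rw [col_other u hi, map_mul, map_mul, hS.invol]
    intro e
    refine hζE ?_
    linear_combination e - D * σ D * (u i * σ (u i)) * hex a - D * σ D * hex i
  · rw [col_other u hp]; exact mul_ne_zero hD0 (hne p)

theorem eight_col (hO : Over 8 σ M) (hn : Fintype.card ι = 6) {g : GL ι F}
    (hg : g ∈ kz σ M) {u : ι → F} {a : ι} (hgu : (g : Matrix ι ι F) *ᵥ ax a = u) (hne : ∀ i, u i ≠ 0) :
    FixAx M := by
  obtain ⟨ε, hε, ho⟩ := exists_circle_gen hO.std
  have h2 := two_eq_zero_eight hO.std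
  have hu : sf σ u u = 1 := by rw [← hgu, hg.1, sf_ax_self]
  obtain ⟨k, hk⟩ : ∃ k, u k * σ (u k) ≠ 1 := by
    by_contra hc
    push Not at hc
    rw [sf, Finset.sum_congr rfl fun i _ => hc i, Finset.sum_const, Finset.card_univ, hn,
      nsmul_one] at hu
    have h : (6 : F) = 1 := by exact_mod_cast hu
    exact one_ne_zero (α := F) (by linear_combination -h + 3 * h2)
  have hk0 : u k * σ (u k) ≠ 0 := mul_ne_zero (hne k) (by simpa using hne k)
  obtain ⟨i, j, l, hi, hj, hl, hij, hli, hlj⟩ := three_avoid hn {k} (by simp)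
  rw [Finset.mem_singleton] at hi hj hl
  refine plane_fix hO hε ?_ hg hgu (hne k) hk (fun _ => ⟨fun e => hk ?_, fun e => hk0 ?_⟩) hi hj hl hij hli hlj
    (hne i) (hne j) (hne l)
  · rw [hn, Units.val_pow_eq_pow_val, ← pow_mul]
    exact val_pow_ne_one (by rw [ho]; norm_num)
  · linear_combination e - u k * σ (u k) * h2
  · linear_combination e - (u k * σ (u k) - 1) * h2

theorem three_col (hO : Over 3 σ M) (hn : Fintype.card ι = 6) {g : GL ι F}
    (hg : g ∈ kz σ M) {u : ι → F} {a : ι} (hgu : (g : Matrix ι ι F) *ᵥ ax a = u) (hne : ∀ i, u i ≠ 0) :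
    FixAx M := by
  haveI := char_eq_of_prime hO.std Nat.prime_three
  obtain ⟨ε, hε, ho⟩ := exists_circle_gen hO.std
  have hu : sf σ u u = 1 := by rw [← hgu, hg.1, sf_ax_self]
  obtain ⟨N, hN, hNu, hs⟩ := exists_nat_nrm hO.std hu hne
  obtain ⟨b, hb⟩ : ∃ b, N b = 2 := by
    by_contra hc
    push Not at hc
    rw [Finset.sum_congr rfl fun i _ => show N i = 1 by have := hN i; have := hc i; omega,
      Finset.sum_const, Finset.card_univ, hn] at hs
    simp at hs
  have hp0 : (3 : F) = 0 := by exact_mod_cast CharP.cast_eq_zero F 3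
  have hδ : ε ^ 6 = -1 := by
    have h4 : ((ε : F) ^ 2) ^ 2 = 1 := by
      rw [← pow_mul, ← Units.val_pow_eq_pow_val, show 2 * 2 = orderOf ε by rw [ho], pow_orderOf_eq_one,
        Units.val_one]
    have h2 : (ε : F) ^ 2 = -1 := (sq_eq_one_iff.1 h4).resolve_left (val_pow_ne_one (by rw [ho]; norm_num))
    refine Units.ext ?_
    rw [Units.val_pow_eq_pow_val, show 6 = 2 * 3 by norm_num, pow_mul, h2, Units.val_neg, Units.val_one]
    ring
  obtain ⟨g', hg', hcol⟩ := refl_col hO hn hε hδ hg hgu b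
  rw [Units.val_neg, Units.val_one] at hcol
  have hD : (-1 : F) - 1 ≠ 0 := fun e => one_ne_zero (α := F) (by linear_combination hp0 + e)
  obtain ⟨i, j, l, hi, hj, hl, hij, hli, hlj⟩ := three_avoid hn {b} (by simp)
  rw [Finset.mem_singleton] at hi hj hl
  have hz : ∀ p, p ≠ b → (ax b + ((-1 - 1) * σ (u b)) • u : ι → F) p ≠ 0 := fun p hp => by
    rw [col_other u hp]
    exact mul_ne_zero (mul_ne_zero hD (by simpa using hne b)) (hne p)
  refine fix_of_zero_wide hO hn hε ?_ hg' hcol (a := b) ?_ hij hli hlj (hz i hi) (hz j hj) (hz l hl)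
  · rw [hδ, Units.val_neg, Units.val_one]
    exact fun e => hD (by rw [e]; ring)
  · have hb' := hNu b
    rw [hb, nrm, Nat.cast_ofNat] at hb'
    rw [col_self]
    linear_combination (-2 : F) * hb' - hp0

theorem eleven_col (hO : Over 11 σ M) (hn : Fintype.card ι = 6) {g : GL ι F}
    (hg : g ∈ kz σ M) {u : ι → F} {a : ι} (hgu : (g : Matrix ι ι F) *ᵥ ax a = u) (hne : ∀ i, u i ≠ 0) :
    FixAx M := by
  haveI := char_eq_of_prime hO.std (by norm_num : Nat.Prime 11)
  have hS := hO.std
  have hf := hS.isUnitary (ι := ι)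
  obtain ⟨ε, hε, ho⟩ := exists_circle_gen hS
  have hu : sf σ u u = 1 := by rw [← hgu, hg.1, sf_ax_self]
  have hp0 : (11 : F) = 0 := by exact_mod_cast CharP.cast_eq_zero F 11
  have h20 : (2 : F) ≠ 0 := by exact_mod_cast cast_ne_cast (F := F) (p := 11) (a := 2) (b := 0) (by norm_num)
  have hδ : ε ^ 6 = -1 := by
    refine Units.ext ?_
    have h4 : ((ε : F) ^ 6) ^ 2 = 1 := by
      rw [← pow_mul, ← Units.val_pow_eq_pow_val, show 6 * 2 = orderOf ε by rw [ho], pow_orderOf_eq_one,
        Units.val_one]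
    rw [Units.val_pow_eq_pow_val, Units.val_neg, Units.val_one]
    exact (sq_eq_one_iff.1 h4).resolve_left (val_pow_ne_one (by rw [ho]; norm_num))
  have hδ1 : ((ε ^ 6 : Fˣ) : F) ≠ 1 := by
    rw [hδ, Units.val_neg, Units.val_one]
    exact fun e => h20 (by linear_combination -e)
  let P : (Fin 6 → ℕ) → Prop := fun n => ∃ g ∈ kz σ M, ∃ (v : ι → F) (c : ι) (e : Fin 6 ≃ ι),
    (g : Matrix ι ι F) *ᵥ ax c = v ∧ (∀ i, v i ≠ 0) ∧ ∀ i, v (e i) * σ (v (e i)) = (n i : F)
  have key : ∀ g ∈ kz σ M, ∀ (v : ι → F) (c b : ι), (g : Matrix ι ι F) *ᵥ ax c = v → (∀ i, v i ≠ 0) →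
      v b * σ (v b) = (6 : F) → FixAx M := by
    intro g hg v c b hgv hv hb
    obtain ⟨g', hg', hcol⟩ := refl_col hO hn hε hδ hg hgv b
    rw [Units.val_neg, Units.val_one] at hcol
    obtain ⟨i, j, l, hi, hj, hl, hij, hli, hlj⟩ := three_avoid hn {b} (by simp)
    rw [Finset.mem_singleton] at hi hj hl
    have hz : ∀ p, p ≠ b → (ax b + ((-1 - 1) * σ (v b)) • v : ι → F) p ≠ 0 := fun p hp => by
      rw [col_other v hp]
      refine mul_ne_zero (mul_ne_zero ?_ (by simpa using hv b)) (hv p)
      exact fun e => h20 (by linear_combination -e)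
    refine fix_of_zero_wide hO hn hε hδ1 hg' hcol (a := b) ?_ hij hli hlj (hz i hi) (hz j hj) (hz l hl)
    rw [col_self]
    linear_combination (-2 : F) * hb - hp0
  have main : ∀ f n, normClosure good11 step11 f n = true → P n → FixAx M := by
    refine normClosure_sound ?_ ?_
    · rintro n ⟨g, hg, v, c, e, hgv, hv, hn'⟩ hgood
      simp only [good11, Bool.or_eq_true, decide_eq_true_eq] at hgood
      rcases hgood with ⟨i, hi⟩ | ⟨i, j, hij, hi⟩
      · refine key g hg v c (e i) hgv hv ((hn' i).trans ?_)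
        rw [cast_eq_cast (p := 11) (b := 6) (by rw [hi])]
        norm_num
      · have hab : e i ≠ e j := fun h => hij (e.injective h)
        set d : GL ι F := uRefl hS (sf_ax_self (e i)) (ε ^ Fintype.card ι) *
          uRefl hS (sf_ax_self (e j)) (ε ^ Fintype.card ι)
        have hd : d ∈ kz σ M := (kz σ M).mul_mem (refl_ax_mem hO hε _) (refl_ax_mem hO hε _)
        set w := (d : Matrix ι ι F) *ᵥ v with hw
        have hwp : ∀ p, w p = (if p = e i ∨ p = e j then -1 else 1) * v p := fun p => by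
          rw [hw, Units.val_mul, ← mulVec_mulVec, uRefl_ax_mulVec, uRefl_ax_mulVec, hn, hδ, Units.val_neg,
            Units.val_one]
          by_cases h1 : p = e i
          · simp [h1, hab]
          · by_cases h2 : p = e j <;> simp [h1, h2, Ne.symm hij]
        have hdg : ((d * g : GL ι F) : Matrix ι ι F) *ᵥ ax c = w := by
          rw [Units.val_mul, ← mulVec_mulVec, hgv]
        have hdgk := (kz σ M).mul_mem hd hg
        have hww : sf σ w w = 1 := by rw [← hdg, hdgk.1, sf_ax_self]
        have hR := refl_mem hO hε hdgk hdg hww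
        have hvv : sf σ v v = 1 := by rw [← hgv, hg.1, sf_ax_self]
        have h9 : v (e i) * σ (v (e i)) + v (e j) * σ (v (e j)) = 9 := by
          rw [hn', hn', ← Nat.cast_add, cast_eq_cast (p := 11) (b := 9) (by rw [hi])]
          norm_num
        have hvw : sf σ v w = -17 := by
          have e1 : sf σ v w = sf σ v v - 2 * (v (e i) * σ (v (e i)) + v (e j) * σ (v (e j))) := by
            simp only [sf, hwp, map_mul, apply_ite σ, map_neg, map_one]
            rw [eq_sub_iff_add_eq, ← Finset.sum_pair hab (f := fun p => v p * σ (v p)), Finset.mul_sum,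
              Finset.sum_subset_zero_on_sdiff (s₁ := ({e i, e j} : Finset ι)) (s₂ := Finset.univ)
                (g := fun p => if p = e i ∨ p = e j then 2 * (v p * σ (v p)) else 0) (Finset.subset_univ _)
                (fun p hp => if_neg (by simpa using hp)) (fun p hp => (if_pos (by simpa using hp)).symm),
              ← Finset.sum_add_distrib]
            refine Finset.sum_congr rfl fun p _ => ?_
            split_ifs <;> ring
          rw [e1, hvv, h9]; norm_num
        obtain ⟨z, hz⟩ : ∃ z, z = v + w := ⟨_, rfl⟩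
        have hcol : ((uRefl hS hww (ε ^ Fintype.card ι) * g : GL ι F) : Matrix ι ι F) *ᵥ ax c = z := by
          rw [Units.val_mul, ← mulVec_mulVec, hgv, uRefl_mulVec, hn, hδ, Units.val_neg, Units.val_one, hvw,
            show ((-1 : F) - 1) * -17 = 1 by linear_combination (3 : F) * hp0, one_smul, hz]
        obtain ⟨k, l, m, hk, hl, hm, hkl, hmk, hml⟩ := three_avoid hn {e i, e j}
          ((Finset.card_le_two).trans (by norm_num))
        simp only [Finset.mem_insert, Finset.mem_singleton, not_or] at hk hl hm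
        have hz0 : ∀ p, p ≠ e i → p ≠ e j → z p ≠ 0 := fun p h1 h2 => by
          rw [hz, Pi.add_apply, hwp, if_neg (by simp [h1, h2]), one_mul, ← two_mul]
          exact mul_ne_zero h20 (hv p)
        refine fix_of_zero_wide hO hn hε hδ1 ((kz σ M).mul_mem hR hg) hcol (a := e i) ?_ hkl hmk hml
          (hz0 k hk.1 hk.2) (hz0 l hl.1 hl.2) (hz0 m hm.1 hm.2)
        rw [hz, Pi.add_apply, hwp, if_pos (Or.inl rfl)]; ring
    · rintro n ⟨g, hg, v, c, e, hgv, hv, hn'⟩ hgood i
      simp only [good11, Bool.or_eq_false_iff, decide_eq_false_iff_not, not_exists] at hgood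
      obtain ⟨g', hg', hcol⟩ := refl_col hO hn hε hδ hg hgv (e i)
      rw [Units.val_neg, Units.val_one] at hcol
      left
      refine ⟨g', hg', _, e i, e, hcol, fun p => ?_, fun j => ?_⟩
      · rcases eq_or_ne p (e i) with rfl | hp
        · rw [col_self]
          intro h
          refine hgood.1 i ?_
          have h2 : ((2 * n i : ℕ) : F) = ((1 : ℕ) : F) := by
            push_cast; rw [← hn']; linear_combination -h
          have := (CharP.natCast_eq_natCast F 11).1 h2
          rw [Nat.ModEq] at this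
          omega
        · rw [col_other v hp]
          refine mul_ne_zero (mul_ne_zero ?_ (by simpa using hv (e i))) (hv p)
          exact fun h => h20 (by linear_combination -h)
      · unfold step11
        by_cases hj : j = i
        · subst hj
          rw [if_pos rfl, cast_eq_cast (p := 11) (b := 4 * n j * n j + 7 * n j + 1) (Nat.mod_mod _ _),
            col_self]
          simp only [map_add, map_mul, map_sub, map_neg, map_one, hS.invol]
          push_cast
          rw [← hn']
          linear_combination (-(v (e j) * σ (v (e j)))) * hp0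
        · rw [if_neg hj, cast_eq_cast (p := 11) (b := 4 * n i * n j) (Nat.mod_mod _ _),
            col_other v (fun h => hj (e.injective h))]
          simp only [map_mul, map_sub, map_neg, map_one, hS.invol]
          push_cast
          rw [← hn', ← hn']
          ring
  obtain ⟨N, hN, hNu, hs⟩ := exists_nat_nrm hS hu hne
  obtain ⟨e, he⟩ := exists_sorted_closure hn (p := 11) table11 N (fun i => (hN i).1) (fun i => (hN i).2) hs
  exact main 4 _ he ⟨g, hg, u, a, e, hgu, hne, fun i => hNu (e i)⟩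

theorem mod17 : ∀ r < 17, r ≠ 6 → r ≠ 12 →
    3 % 17 * r % 17 ≠ 1 % 17 ∧ 3 % 17 * r % 17 ≠ 2 % 17 := by decide

theorem seventeen_col (hO : Over 17 σ M) (hn : Fintype.card ι = 6) {g : GL ι F}
    (hg : g ∈ kz σ M) {u : ι → F} {a : ι} (hgu : (g : Matrix ι ι F) *ᵥ ax a = u) (hne : ∀ i, u i ≠ 0) :
    FixAx M := by
  haveI := char_eq_of_prime hO.std (by norm_num : Nat.Prime 17)
  have hS := hO.std
  obtain ⟨ε, hε, ho⟩ := exists_circle_gen hS
  have hu : sf σ u u = 1 := by rw [← hgu, hg.1, sf_ax_self]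
  obtain ⟨N, hN, hNu, hs⟩ := exists_nat_nrm hS hu hne
  set δ := ε ^ 6 with hδ
  have hd2 : (δ : F) ^ 2 ≠ 1 := by
    rw [hδ, Units.val_pow_eq_pow_val, ← pow_mul]; exact val_pow_ne_one (by rw [ho]; norm_num)
  have hd1 : (δ : F) ≠ 1 := fun e => hd2 (by rw [e, one_pow])
  have hd3 : (δ : F) ^ 3 = 1 := by
    rw [hδ, Units.val_pow_eq_pow_val, ← pow_mul, ← Units.val_pow_eq_pow_val,
      show 6 * 3 = orderOf ε by rw [ho], pow_orderOf_eq_one, Units.val_one]
  have finish : ∀ (g' : GL ι F), g' ∈ kz σ M → ∀ (w : ι → F) (c : ι),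
      (g' : Matrix ι ι F) *ᵥ ax c = w → ∀ k (R : ℕ), w k * σ (w k) = (R : F) → R % 17 ∉ ({0, 1, 6, 12} : Finset ℕ) →
      (∀ i, i ≠ c → w i ≠ 0) → FixAx M := by
    intro g' hg' w c hw k R hR hbad hw0
    simp only [Finset.mem_insert, Finset.mem_singleton, not_or] at hbad
    have hR0 : w k * σ (w k) ≠ 0 := by
      rw [hR, ← Nat.cast_zero]; exact cast_ne_cast (p := 17) hbad.1
    obtain ⟨i, j, l, hi, hj, hl, hij, hli, hlj⟩ := three_avoid hn {k, c}
      ((Finset.card_le_two).trans (by norm_num))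
    simp only [Finset.mem_insert, Finset.mem_singleton, not_or] at hi hj hl
    refine plane_fix hO hε (by rwa [hn]) hg' hw (left_ne_zero_of_mul hR0) ?_ (fun _ => ⟨?_, ?_⟩) hi.1 hj.1
      hl.1 hij hli hlj (hw0 i hi.2) (hw0 j hj.2) (hw0 l hl.2)
    · rw [hR, ← Nat.cast_one]; exact cast_ne_cast (p := 17) hbad.2.1
    · rw [hR, show (3 : F) * (R : F) = ((3 * R : ℕ) : F) by push_cast; rfl, ← Nat.cast_one]
      refine cast_ne_cast (p := 17) ?_
      rw [Nat.mul_mod]
      exact (mod17 _ (Nat.mod_lt _ (by norm_num)) hbad.2.2.1 hbad.2.2.2).1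
    · rw [hR, show (3 : F) * (R : F) = ((3 * R : ℕ) : F) by push_cast; rfl, ← Nat.cast_ofNat]
      refine cast_ne_cast (p := 17) ?_
      rw [Nat.mul_mod]
      exact (mod17 _ (Nat.mod_lt _ (by norm_num)) hbad.2.2.1 hbad.2.2.2).2
  by_cases hex : ∃ k, N k ∉ ({0, 1, 6, 12} : Finset ℕ)
  · obtain ⟨k, hk⟩ := hex
    exact finish g hg u a hgu k (N k) (hNu k) (by rwa [Nat.mod_eq_of_lt (hN k).2]) fun i _ => hne i
  push Not at hex
  have hv : ∀ k, N k = 1 ∨ N k = 6 ∨ N k = 12 := fun k => by
    have := hex k; have := hN k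
    simp only [Finset.mem_insert, Finset.mem_singleton] at *
    omega
  obtain ⟨b, hb⟩ : ∃ b, N b ≠ 6 := by
    by_contra hc
    push Not at hc
    rw [Finset.sum_congr rfl fun i _ => hc i, Finset.sum_const, Finset.card_univ, hn] at hs
    simp at hs
  obtain ⟨i, hib, hi⟩ : ∃ i, i ≠ b ∧ N i ≠ 6 := by
    by_contra hc
    push Not at hc
    rw [← Finset.add_sum_erase Finset.univ N (Finset.mem_univ b),
      Finset.sum_congr rfl fun i hi => hc i (Finset.ne_of_mem_erase hi), Finset.sum_const,
      Finset.card_erase_of_mem (Finset.mem_univ b), Finset.card_univ, hn, smul_eq_mul] at hs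
    rcases hv b with h | h | h <;> omega
  obtain ⟨g', hg', hcol⟩ := refl_col hO hn hε hδ.symm hg hgu b
  have hE : ((δ : F) - 1) * σ ((δ : F) - 1) = 3 := by
    have hd : Cir σ (δ : F) := by rw [hδ, Units.val_pow_eq_pow_val, ← zpow_natCast]; exact hε.zpow _
    have h2 : σ (δ : F) = (δ : F) ^ 2 := by
      rw [hd.conj_eq]
      exact (eq_inv_of_mul_eq_one_right (by linear_combination hd3 : (δ : F) * (δ : F) ^ 2 = 1)).symm
    have h0 : (δ : F) ^ 2 + δ + 1 = 0 :=
      (mul_eq_zero.1 (show ((δ : F) - 1) * ((δ : F) ^ 2 + δ + 1) = 0 by linear_combination hd3)).resolve_left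
        (sub_ne_zero.2 hd1)
    rw [map_sub, map_one, h2]
    linear_combination hd3 - h0
  refine finish g' hg' _ b hcol i (3 * N b * N i) ?_ ?_ fun p hp => ?_
  · rw [col_other u hib, map_mul, map_mul, hS.invol]
    have e1 := hNu b
    have e2 := hNu i
    rw [nrm] at e1 e2
    push_cast
    rw [← e1, ← e2, ← hE]
    ring
  · have := hv b; have := hv i
    rcases hv b with h | h | h <;> rcases hv i with h' | h' | h' <;> simp [h, h'] at hb hi ⊢
  · rw [col_other u hp]
    exact mul_ne_zero (mul_ne_zero (sub_ne_zero.2 hd1) (by simpa using hne b)) (hne p)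

theorem five_zero (hO : Over 5 σ M) (hn : Fintype.card ι = 6) {g : GL ι F} (hg : g ∈ M)
    (hgm : ¬ IsMono g) {b k : ι} (hk : ((g : Matrix ι ι F) *ᵥ ax b) k = 0) : FixAx M := by
  classical
  haveI := char_eq_of_prime hO.std (by norm_num : Nat.Prime 5)
  obtain ⟨ε, hε, ho⟩ := exists_circle_gen hO.std
  have hε3 : (ε : F) ^ 3 ≠ 1 := val_pow_ne_one (by rw [ho]; norm_num)
  have hε4 : (ε : F) ^ 4 ≠ 1 := val_pow_ne_one (by rw [ho]; norm_num)
  set u := (g : Matrix ι ι F) *ᵥ ax b with hu
  by_cases h2 : ∃ k', k' ≠ k ∧ u k' = 0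
  · obtain ⟨k', hk', h0⟩ := h2
    exact fix_of_two_zeros hO hε hε3 hε4 hg hgm (Ne.symm hk') hk h0
  push Not at h2
  choose N hN hNu using fun i => fixed_cast hO.std (norm_fixed hO.std.card hO.std.frob (u i))
  obtain ⟨l, hl, m, hm, hlm, he⟩ := Finset.exists_ne_map_eq_of_card_lt_of_maps_to
    (s := Finset.univ.erase k) (t := Finset.Icc 1 4) (f := N)
    (by rw [Finset.card_erase_of_mem (Finset.mem_univ k), Finset.card_univ, hn]; simp)
    (fun i hi => by
      have h1 := hN i
      have h0 : N i ≠ 0 := fun e => by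
        have := hNu i
        rw [e, Nat.cast_zero] at this
        have hne := h2 i (Finset.ne_of_mem_erase hi)
        exact mul_ne_zero hne (by simpa using hne) this.symm
      simp only [Finset.coe_Icc, Set.mem_Icc]
      omega)
  have h20 : (2 : F) ≠ 0 := by exact_mod_cast cast_ne_cast (F := F) (p := 5) (a := 2) (b := 0) (by norm_num)
  refine fix_of_zero_pair hO h20 hn hε hε3 hε4 hg hgm (Finset.ne_of_mem_erase hl) (Finset.ne_of_mem_erase hm)
    hlm hk (h2 l (Finset.ne_of_mem_erase hl)) ?_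
  show u l * σ (u l) = u m * σ (u m)
  rw [← hNu, ← hNu, he]

/-- The pair reflection step. -/
theorem five_op (hO : Over 5 σ M) (hn : Fintype.card ι = 6) {g : GL ι F} (hg : g ∈ M) {a i : ι}
    (hne : ∀ p, ((g : Matrix ι ι F) *ᵥ ax a) p ≠ 0) :
    FixAx M ∨ ∃ g' ∈ M, (g' : Matrix ι ι F) *ᵥ ax i =
      ax i + ((-2 : F) * σ (((g : Matrix ι ι F) *ᵥ ax a) i)) • ((g : Matrix ι ι F) *ᵥ ax a) := by
  classical
  haveI := char_eq_of_prime hO.std (by norm_num : Nat.Prime 5)
  set r := (g : Matrix ι ι F) *ᵥ ax a with hr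
  have hgm : ¬ IsMono g := fun h => by
    obtain ⟨p, hp⟩ := h a
    obtain ⟨j, -, -, hj, -⟩ := three_avoid hn {p} (by simp)
    exact hne j (mem_axis_iff.1 hp j (by simpa using hj))
  set u := ((g⁻¹ : GL ι F) : Matrix ι ι F) *ᵥ ax i with hu
  by_cases h0 : ∃ k, u k = 0
  · obtain ⟨k, hk⟩ := h0
    exact Or.inl (five_zero hO hn (M.inv_mem hg) (fun h => hgm (by simpa using h.inv)) hk)
  push Not at h0
  right
  choose N hN hNu using fun p => fixed_cast hO.std (norm_fixed hO.std.card hO.std.frob (u p))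
  obtain ⟨l, hl, m, hm, hlm, he⟩ := Finset.exists_ne_map_eq_of_card_lt_of_maps_to
    (s := Finset.univ.erase a) (t := Finset.Icc 1 4) (f := N)
    (by rw [Finset.card_erase_of_mem (Finset.mem_univ a), Finset.card_univ, hn]; simp)
    (fun p _ => by
      have h1 := hN p
      have hp0 : N p ≠ 0 := fun e => by
        have := hNu p
        rw [e, Nat.cast_zero] at this
        exact mul_ne_zero (h0 p) (by simpa using h0 p) this.symm
      simp only [Finset.coe_Icc, Set.mem_Icc]
      omega)
  have hla := Finset.ne_of_mem_erase hl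
  have hma := Finset.ne_of_mem_erase hm
  have hN' : u l * σ (u l) = u m * σ (u m) := by rw [← hNu, ← hNu, he]
  have hNl : u l * σ (u l) ≠ 0 := mul_ne_zero (h0 l) (by simpa using h0 l)
  set s : Fˣ := Units.mk0 (u m / u l) (div_ne_zero (h0 m) (h0 l))
  have hsc : Cir σ (s : F) := by
    show u m / u l * σ (u m / u l) = 1
    rw [map_div₀, div_mul_div_comm, ← hN', div_self hNl]
  set c : ι → Fˣ := fun p => if p = l then s else if p = m then s⁻¹ else if p = a then -1 else 1 with hc
  have hcc : ∀ p, Cir σ (c p : F) := fun p => by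
    simp only [hc]
    split_ifs
    · exact hsc
    · rw [Units.val_inv_eq_inv_val]; exact hsc.inv
    · rw [Units.val_neg, Units.val_one]; exact cir_neg_one σ
    · exact cir_one σ
  set h := monoGL (Equiv.swap l m) c with hh
  have hhM : h ∈ M := by
    refine hO.mono_mem _ (iso_monoGL _ _ hcc) ?_ (isMono_monoGL _ _)
    rw [PseudoRefl.mem_specialLinear_iff, det_monoGL91, Equiv.Perm.sign_swap hlm, ← Units.coe_prod]
    have e : ∏ p, c p = -1 := by
      rw [← Finset.prod_subset (Finset.subset_univ ({l, m, a} : Finset ι)) fun p _ hp => by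
          simp only [Finset.mem_insert, Finset.mem_singleton, not_or] at hp
          simp [hc, hp.1, hp.2.1, hp.2.2],
        Finset.prod_insert (by simp [hlm, hla]), Finset.prod_pair hma]
      simp [hc, Ne.symm hlm, Ne.symm hla, Ne.symm hma]
    rw [e]; simp
  have hu2 : (h : Matrix ι ι F) *ᵥ u = u + ((-2 : F) * u a) • ax a := by
    funext p
    rw [hh, monoGL_mulVec, Equiv.symm_swap]
    rcases eq_or_ne p l with rfl | hpl
    · simp [hc, s, hla, Ne.symm hlm]
      field_simp [h0 m]
    rcases eq_or_ne p m with rfl | hpm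
    · simp [hc, s, hma]
      field_simp [h0 l]
    rcases eq_or_ne p a with rfl | hpa
    · simp [hc, hpl, hpm, Equiv.swap_apply_of_ne_of_ne hpl hpm]; ring
    · simp [hc, hpl, hpm, hpa, Equiv.swap_apply_of_ne_of_ne hpl hpm]
  refine ⟨g * h * g⁻¹, M.mul_mem (M.mul_mem hg hhM) (M.inv_mem hg), ?_⟩
  rw [Units.val_mul, Units.val_mul, ← mulVec_mulVec, ← mulVec_mulVec, ← hu, hu2, mulVec_add, mulVec_smul,
    ← hr, hu, mulVec_inv_mulVec, inv_apply_eq (hO.iso g hg), sf_ax_left]

theorem five_col (hO : Over 5 σ M) (hn : Fintype.card ι = 6) {g : GL ι F} (hg : g ∈ M) {a : ι}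
    (hne : ∀ p, ((g : Matrix ι ι F) *ᵥ ax a) p ≠ 0) : FixAx M := by
  classical
  haveI := char_eq_of_prime hO.std (by norm_num : Nat.Prime 5)
  have hS := hO.std
  have hp0 : (5 : F) = 0 := by exact_mod_cast CharP.cast_eq_zero F 5
  have h20 : (2 : F) ≠ 0 := by exact_mod_cast cast_ne_cast (F := F) (p := 5) (a := 2) (b := 0) (by norm_num)
  let P : (Fin 6 → ℕ) → Prop := fun n => ∃ g ∈ M, ∃ (c : ι) (e : Fin 6 ≃ ι),
    (∀ p, ((g : Matrix ι ι F) *ᵥ ax c) p ≠ 0) ∧ ∀ i, nrm σ ((g : Matrix ι ι F) *ᵥ ax c) (e i) = (n i : F)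
  have main : ∀ f n, normClosure good5 step5 f n = true → P n → FixAx M := by
    refine normClosure_sound ?_ ?_
    · rintro n ⟨g, hg, c, e, hv, hn'⟩ hgood
      simp only [good5, Bool.or_eq_true, decide_eq_true_eq] at hgood
      rcases hgood with ⟨i, hi⟩ | hconst
      · rcases five_op hO hn hg (i := e i) hv with h | ⟨g', hg', hcol⟩
        · exact h
        have hne' : ∀ p, p ≠ e i → ((g' : Matrix ι ι F) *ᵥ ax (e i)) p ≠ 0 := fun p hp => by
          rw [hcol, col_other _ hp]
          exact mul_ne_zero (mul_ne_zero (neg_ne_zero.2 h20) (by simpa using hv (e i))) (hv p)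
        refine five_zero hO hn hg' (fun hm => ?_) (b := e i) (k := e i) ?_
        · obtain ⟨p, hp⟩ := hm (e i)
          obtain ⟨j, -, -, hj, -⟩ := three_avoid hn {p, e i} ((Finset.card_le_two).trans (by norm_num))
          simp only [Finset.mem_insert, Finset.mem_singleton, not_or] at hj
          exact hne' j hj.2 (mem_axis_iff.1 hp j hj.1)
        · have h := hn' i
          rw [nrm, cast_eq_cast (p := 5) (b := 3) (by rw [hi]), Nat.cast_ofNat] at h
          rw [hcol, col_self]
          linear_combination (-2 : F) * h - hp0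
      · refine fix_of_constant hO hn hg hv fun i j => ?_
        rw [← e.apply_symm_apply i, ← e.apply_symm_apply j, hn', hn', hconst, hconst (e.symm j)]
    · rintro n ⟨g, hg, c, e, hv, hn'⟩ hgood i
      simp only [good5, Bool.or_eq_false_iff, decide_eq_false_iff_not, not_exists] at hgood
      rcases five_op hO hn hg (i := e i) hv with h | ⟨g', hg', hcol⟩
      · exact Or.inr h
      refine Or.inl ⟨g', hg', e i, e, fun p => ?_, fun j => ?_⟩ <;> rw [hcol]
      · rcases eq_or_ne p (e i) with rfl | hp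
        · rw [col_self]
          intro h
          refine hgood.1 i ?_
          have h2 : ((2 * n i : ℕ) : F) = ((1 : ℕ) : F) := by
            push_cast; rw [← hn', nrm]; linear_combination -h
          have := (CharP.natCast_eq_natCast F 5).1 h2
          rw [Nat.ModEq] at this
          omega
        · rw [col_other _ hp]
          exact mul_ne_zero (mul_ne_zero (neg_ne_zero.2 h20) (by simpa using hv (e i))) (hv p)
      · unfold step5
        by_cases hj : j = i
        · subst hj
          rw [if_pos rfl, cast_eq_cast (p := 5) (b := 4 * n j * n j + n j + 1) (Nat.mod_mod _ _), nrm,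
            col_self]
          simp only [map_add, map_mul, map_neg, map_one, map_ofNat, hS.invol]
          push_cast
          rw [← hn', nrm]
          linear_combination (-(((g : Matrix ι ι F) *ᵥ ax c) (e j) * σ (((g : Matrix ι ι F) *ᵥ ax c) (e j)))) * hp0
        · rw [if_neg hj, cast_eq_cast (p := 5) (b := 4 * n i * n j) (Nat.mod_mod _ _), nrm,
            col_other _ (fun h => hj (e.injective h))]
          simp only [map_mul, map_neg, map_ofNat, hS.invol]
          push_cast
          rw [← hn', ← hn', nrm, nrm]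
          ring
  obtain ⟨N, hN, hNu, hs⟩ := exists_nat_nrm hS (col_unit hO hg a) hne
  obtain ⟨e, he⟩ := exists_sorted_closure hn (p := 5) table5 N (fun i => (hN i).1) (fun i => (hN i).2) hs
  exact main 4 _ he ⟨g, hg, a, e, hne, fun i => hNu (e i)⟩

/-- Every non-monomial overgroup has a non-monomial element fixing an axis. -/
theorem exists_fixAx (hO : Over q σ M) (hn : Fintype.card ι = 6) (h3 : 3 ≤ q) {g₀ : GL ι F}
    (hg₀ : g₀ ∈ M) (hgm₀ : ¬ IsMono g₀) : FixAx M := by
  classical
  by_cases hb : ∀ g ∈ M, ∀ b : ι, (Finset.univ.filter fun i => ((g : Matrix ι ι F) *ᵥ ax b) i ≠ 0).card ≤ 2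
  · exact fix_of_blocks hO (by omega) hb hg₀ hgm₀
  push Not at hb
  obtain ⟨g, hg, b, hw⟩ := hb
  obtain ⟨i, hi, j, hj, l, hl, hij, hil, hjl⟩ := Finset.two_lt_card.1 hw
  simp only [Finset.mem_filter, Finset.mem_univ, true_and] at hi hj hl
  have hgm : ¬ IsMono g := fun h => by
    obtain ⟨p, hp⟩ := h b
    rw [mem_axis_iff] at hp
    have h1 : i = p := by_contra fun e => hi (hp i e)
    have h2 : j = p := by_contra fun e => hj (hp j e)
    exact hij (h1.trans h2.symm)
  by_cases h5 : q = 5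
  · subst h5
    by_cases hz : ∃ k, ((g : Matrix ι ι F) *ᵥ ax b) k = 0
    · obtain ⟨k, hk⟩ := hz
      exact five_zero hO hn hg hgm hk
    · push Not at hz
      exact five_col hO hn hg hz
  by_cases hz : ∃ k, ((g : Matrix ι ι F) *ᵥ ax b) k = 0
  · obtain ⟨k, hk⟩ := hz
    obtain ⟨ε, hε, ho⟩ := exists_circle_gen hO.std
    refine fix_of_zero_wide hO hn hε ?_ (mem_kz hO hg) rfl hk hij (Ne.symm hil) (Ne.symm hjl) hi hj hl
    rw [Units.val_pow_eq_pow_val]
    refine val_pow_ne_one fun hd => ?_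
    rw [ho] at hd
    have := Nat.le_of_dvd (by norm_num) hd
    have : q ≤ 5 := by omega
    interval_cases q <;> first | omega | (norm_num at hd)
  push Not at hz
  by_cases hq : q ∈ ({3, 5, 8, 11, 17} : Finset ℕ)
  · simp only [Finset.mem_insert, Finset.mem_singleton] at hq
    rcases hq with rfl | rfl | rfl | rfl | rfl
    · exact three_col hO hn (mem_kz hO hg) rfl hz
    · exact absurd rfl h5
    · exact eight_col hO hn (mem_kz hO hg) rfl hz
    · exact eleven_col hO hn (mem_kz hO hg) rfl hz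
    · exact seventeen_col hO hn (mem_kz hO hg) rfl hz
  · obtain ⟨η, hη, h2, h3'⟩ := generic_order hO.std h3 hq
    exact generic_col hO hn hη h2 h3' (mem_kz hO hg) rfl hz

end CfsgLib.SUSix91
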