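import Cfsg.Agent.UnitGeoSmall91.Types
import Cfsg.Agent.SUSix91.MonoCentre
import Cfsg.Agent.SUSix91.MonoSpread
import Cfsg.Agent.SUSix91.MonoSmall

/-!
The stabiliser of an orthonormal frame is maximal in `SU_6(q)` for `q ≥ 3`.
-/

set_option autoImplicit false
open Cfsg

namespace CfsgLib.SUSix91

/-- All isotropic vectors are centres for a non-monomial overgroup in dimension six. -/
theorem mono_centres {ι : Type} [Fintype ι] [DecidableEq ι] {F : Type*} [Field F] [Fintype F] {q : ℕ}
    {σ : F ≃+* F} {M : Subgroup (Matrix.GeneralLinearGroup ι F)} (hO : CfsgLib.UnitMono.Over q σ M)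
    (hn : Fintype.card ι = 6) (hq : 3 ≤ q) {g₀ : Matrix.GeneralLinearGroup ι F} (hg₀ : g₀ ∈ M)
    (hnm : ¬ CfsgLib.MonoBasics.IsMono g₀) :
    ∀ y, CfsgLib.UnitMono.sf σ y y = 0 → CfsgLib.UnitCentres.Centre hO.std.isUnitary M y := by
  obtain ⟨h, hh, hhm, a, c, hc⟩ := exists_fixAx hO hn hq hg₀ hnm
  obtain ⟨w, hw, hwa, hw0⟩ := exists_centre hO hn hh hhm hc
  obtain ⟨l, m, x, y, hlm, hx, hy, hC⟩ := pair_seed hO (by omega) hq hw hwa hw0
  refine all_isotropic hO (by omega) ?_ hq
  exact fun hij _ _ hx' hy' h0 => pair_all hO (by omega) hlm hx hy hC hij hx' hy' h0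

theorem mono_maximal {F : Type*} [Field F] [Fintype F] (q : ℕ) (hF : Fintype.card F = q ^ 2) (hq : 3 ≤ q)
    (D : Fin 6 → Submodule F (Fin 6 → F))
    (hD : Cfsg.Geo.IsNondegenerateMDecomposition (Cfsg.hermForm 6 F q) 1 D) :
    Cfsg.Geo.IsMaximalIn (Cfsg.GU 6 F q ⊓ Cfsg.Geo.specialLinear (Fin 6) F)
      (Cfsg.Geo.decompositionStabilizer D ⊓ (Cfsg.GU 6 F q ⊓ Cfsg.Geo.specialLinear (Fin 6) F)) := by
  classical
  open Matrix CfsgLib.TransvGL CfsgLib.UnitCentres CfsgLib.UnitMono CfsgLib.UnitBlock CfsgLib.CircleSums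
    CfsgLib.MonoBasics CfsgLib.DecompProj in
  exact (by
    have hkt := mul_eq_card hD.decomp
    rw [Fintype.card_fin] at hkt
    have hk0 := hD.decomp.pos
    have ht2 := hD.decomp.two_le
    obtain ⟨σ, hσ, hσne, -⟩ := CfsgLib.LinAlg.Witt.exists_conjAut hF
    have hS : Std q σ := ⟨hF, hσ⟩
    have hsf : (sf σ : (Fin 6 → F) → (Fin 6 → F) → F) = Cfsg.hermForm 6 F q := by
      funext x y; simp [sf, Cfsg.hermForm, hσ]
    have hfn : Cfsg.Geo.IsUnitaryForm σ (Cfsg.hermForm 6 F q) := hsf ▸ hS.isUnitary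
    have hnd : ∀ i, CfsgLib.Unitary.IsNondeg q (D i) := fun i u hu h => by
      by_contra hne
      obtain ⟨-, x, hx, hxu⟩ := hD.nondegenerate i u hu hne
      exact hxu (h x hx)
    choose b hb hbD hbspan using fun i =>
      CfsgLib.Unitary.exists_orthonorm_basis hF (hnd i) (hD.decomp.finrank_eq i)
    let G : Fin 1 × Fin 6 → (Fin 6 → F) := fun p => b p.2 p.1
    have hG : ∀ p p', Cfsg.hermForm 6 F q (G p) (G p') = if p = p' then 1 else 0 := by
      rintro ⟨j, i⟩ ⟨j', i'⟩
      by_cases h : i = i'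
      · subst h
        rw [show Cfsg.hermForm 6 F q (G (j, i)) (G (j', i)) = _ from hb i j j']
        simp
      · rw [hD.orthogonal i i' h _ (hbD i j) _ (hbD i' j'), if_neg (by simp [h])]
    let L0 : (Fin 1 × Fin 6 → F) →ₗ[F] (Fin 6 → F) := Fintype.linearCombination F G
    have hL0 : ∀ x, L0 x = ∑ p, x p • G p := fun x => rfl
    have hcoord : ∀ x p, Cfsg.hermForm 6 F q (L0 x) (G p) = x p := fun x p => by
      rw [hL0, CfsgLib.Unitary.herm_sum_left, Finset.sum_eq_single p]
      · rw [CfsgLib.Unitary.herm_smul_left, hG, if_pos rfl, mul_one]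
      · intro p' _ hp'
        rw [CfsgLib.Unitary.herm_smul_left, hG, if_neg hp', mul_zero]
      · simp
    have hinj : Function.Injective L0 := fun x y h => funext fun p => by
      rw [← hcoord x p, h, hcoord]
    let L : (Fin 1 × Fin 6 → F) ≃ₗ[F] (Fin 6 → F) :=
      LinearMap.linearEquivOfInjective L0 hinj (by
        simp)
    have hL : ∀ x, L x = L0 x := fun x => rfl
    have hLf : ∀ x y, Cfsg.hermForm 6 F q (L x) (L y) = sf σ x y := fun x y => by
      rw [hL, hL, hL0 y, CfsgLib.Unitary.herm_sum_right hF, sf]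
      refine Finset.sum_congr rfl fun p _ => ?_
      rw [CfsgLib.Unitary.herm_smul_right, hcoord, hσ, mul_comm]
    have hLsupp : ∀ i y, L (emb i y) ∈ D i := fun i y => by
      rw [hL, hL0]
      refine Submodule.sum_mem _ fun p _ => ?_
      obtain ⟨j, i'⟩ := p
      by_cases h : i' = i
      · subst h; exact Submodule.smul_mem _ _ (hbD i' j)
      · simp [emb, h]
    have hLsurj : ∀ i, ∀ v ∈ D i, ∃ y, L (emb i y) = v := fun i v hv => by
      rw [← hbspan i, Submodule.mem_span_range_iff_exists_fun] at hv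
      obtain ⟨c, rfl⟩ := hv
      refine ⟨c, ?_⟩
      rw [hL, hL0, Fintype.sum_prod_type]
      refine Finset.sum_congr rfl fun j _ => ?_
      rw [Finset.sum_eq_single i (fun i' _ h => by simp [emb, h]) (by simp)]
      simp [emb, G]
    set Φ := Cfsg.Agent.S5655.transport L with hΦ
    have hΦiso : ∀ g, g ∈ (Cfsg.GU 6 F q ⊓ Cfsg.Geo.specialLinear (Fin 6) F).comap Φ ↔
        Iso (sf σ) g ∧ g ∈ Cfsg.Geo.specialLinear (Fin 1 × Fin 6) F := fun g => by
      rw [Subgroup.mem_comap, mem_special, CfsgLib.PseudoRefl.mem_specialLinear_iff,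
        CfsgLib.PseudoRefl.mem_specialLinear_iff, Cfsg.Agent.S5655.det_transport]
      refine and_congr_left' ⟨fun h x y => ?_, fun h u v => ?_⟩
      · rw [← hLf, ← hLf, ← Cfsg.Agent.S5655.transport_mulVec, ← Cfsg.Agent.S5655.transport_mulVec, h]
      · obtain ⟨x, rfl⟩ := L.surjective u
        obtain ⟨y, rfl⟩ := L.surjective v
        rw [Cfsg.Agent.S5655.transport_mulVec, Cfsg.Agent.S5655.transport_mulVec, hLf, hLf, h]
    have hstab : ∀ g, StabBlocks g → Φ g ∈ Cfsg.Geo.decompositionStabilizer D := by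
      rintro g ⟨π, hπ⟩
      refine mem_decompositionStabilizer_of_maps hD.decomp π fun i v hv => ?_
      obtain ⟨y, rfl⟩ := hLsurj i v hv
      obtain ⟨y', hy'⟩ := hπ i y
      rw [Cfsg.Agent.S5655.transport_mulVec, hy']
      exact hLsupp _ _
    refine ⟨lt_of_le_of_ne inf_le_right ?_, fun M hHM hMK => ?_⟩
    · -- a transvection mixing members
      intro e
      obtain ⟨j0⟩ : Nonempty (Fin 1) := ⟨⟨0, hk0⟩⟩
      set i0 : Fin 6 := ⟨0, by omega⟩
      set i1 : Fin 6 := ⟨1, by omega⟩
      have hi01 : i0 ≠ i1 := by simp [i0, i1]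
      have hout : ∀ (z : Fin 1 × Fin 6 → F) (c : F) (y : Fin 1 → F), sf σ z z = 0 → c + σ c = 0 →
          ∀ (hz : sf σ z z = 0), ∀ p p', p ≠ p' →
          blk (emb i0 y + (c * sf σ (emb i0 y) z) • z) p ≠ 0 →
          blk (emb i0 y + (c * sf σ (emb i0 y) z) • z) p' ≠ 0 → False := by
        intro z c y _ hc hz p p' hpp hp hp'
        have hmem : uT (hS.isUnitary) hz c ∈ (Cfsg.GU 6 F q ⊓ Cfsg.Geo.specialLinear (Fin 6) F).comap Φ :=
          (hΦiso _).2 ⟨uT_iso _ hz hc, uT_mem_specialLinear _ hz c⟩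
        rw [Subgroup.mem_comap, ← e] at hmem
        obtain ⟨i, hi⟩ := image_mem_of_stabilizer (Subgroup.mem_inf.1 hmem).1 (hLsupp i0 y)
        obtain ⟨y', hy'⟩ := hLsurj i _ hi
        rw [Cfsg.Agent.S5655.transport_mulVec, uT_mulVec] at hy'
        rw [← L.injective hy', blk_emb] at hp hp'
        have h1 : p = i := by by_contra h; exact hp (if_neg h)
        have h2 : p' = i := by by_contra h; exact hp' (if_neg h)
        exact hpp (h1.trans h2.symm)
      obtain ⟨c, hc0, hc, hc1⟩ : ∃ c : F, c ≠ 0 ∧ c + σ c = 0 ∧ c + 1 ≠ 0 := by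
        obtain ⟨c, hc0, hc⟩ := exists_traceZero (hS.isUnitary (ι := Fin 1))
        by_cases h1 : c + 1 = 0
        · obtain ⟨r, hr, hr'⟩ := Finset.exists_mem_notMem_of_card_lt_card (s := ({0, 1} : Finset F))
            (t := Finset.univ.filter fun z : F => σ z = z)
            (by rw [card_fixed hF hσ]; have := hS.two_le; exact Finset.card_le_two.trans_lt (by omega))
          simp only [Finset.mem_insert, Finset.mem_singleton, not_or] at hr'
          refine ⟨r * c, mul_ne_zero hr'.1 hc0, ?_, fun e => hr'.2 (by linear_combination r * h1 - e)⟩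
          rw [map_mul, (Finset.mem_filter.1 hr).2]
          linear_combination r * hc
        · exact ⟨c, hc0, hc, h1⟩
      obtain ⟨ξ, hξ⟩ := exists_norm hF hσ (r := (-1 : F)) (by simp)
      have hξ0 : ξ ≠ 0 := fun e => by simp [e] at hξ
      set z : Fin 1 × Fin 6 → F := emb i0 (Pi.single j0 1) + emb i1 (Pi.single j0 ξ) with hzdef
      have hz : sf σ z z = 0 := by
        rw [sf_two hS hi01 (fun p h1 h2 => by rw [hzdef, blk_add, blk_emb, blk_emb, if_neg h1, if_neg h2, add_zero]),
          hzdef, blk_add, blk_add, blk_emb, blk_emb, blk_emb, blk_emb, if_pos rfl, if_neg hi01,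
          if_neg hi01.symm, if_pos rfl, add_zero, zero_add, sf_ax_self]
        simp [sf, Pi.single_apply, apply_ite σ, Subsingleton.elim j0 0]
        linear_combination hξ
      refine hout z c (Pi.single j0 1) hz hc hz i0 i1 hi01 ?_ ?_
      · intro h
        have := congrFun h j0
        simp [blk, emb, hzdef, sf_emb_left, sf_ax_left, hi01, hi01.symm] at this
        exact hc1 (by linear_combination this)
      · intro h
        have := congrFun h j0
        simp [blk, emb, hzdef, sf_emb_left, sf_ax_left, hi01, hi01.symm] at this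
        rcases this with h' | h'
        · exact hc0 h'
        · exact hξ0 h'
    by_cases hle : M ≤ Cfsg.Geo.decompositionStabilizer D
    · exact Or.inl (le_antisymm (le_inf hle hMK) hHM)
    obtain ⟨g₀, hg₀M, hg₀⟩ := SetLike.not_le_iff_exists.1 hle
    obtain ⟨g, rfl⟩ := Cfsg.Agent.S5655.transport_surjective L g₀
    refine Or.inr (le_antisymm hMK ?_)
    set M' := M.comap Φ with hM'
    have hmem : ∀ x, Iso (sf σ) x → x ∈ Cfsg.Geo.specialLinear (Fin 1 × Fin 6) F → StabBlocks x → x ∈ M' :=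
      fun x h1 h2 h3 => hHM (Subgroup.mem_inf.2 ⟨hstab x h3, (hΦiso x).2 ⟨h1, h2⟩⟩)
    have hiso' : ∀ x ∈ M', Iso (sf σ) x ∧ x ∈ Cfsg.Geo.specialLinear (Fin 1 × Fin 6) F :=
      fun x hx => (hΦiso x).1 (hMK hx)
    have hcent : ∀ y, sf σ y y = 0 → Centre hS.isUnitary M' y := by
      have hmono : ∀ x : GL (Fin 1 × Fin 6) F, IsMono x → StabBlocks x := fun x hx => by
        choose π hπ using hx
        have hπi := mono_index_injective hπ
        refine ⟨Equiv.ofBijective (fun i => (π (0, i)).2) (Finite.injective_iff_bijective.1 fun a a' h => ?_),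
          fun i y => ⟨blk ((x : Matrix _ _ F) *ᵥ emb i y) ((π (0, i)).2), emb_eq_of_blk fun l hl => ?_⟩⟩
        · have : π (0, a) = π (0, a') := Prod.ext (Subsingleton.elim _ _) h
          exact congrArg Prod.snd (hπi this)
        · have e : emb i y = y 0 • (Pi.single ((0 : Fin 1), i) 1 : Fin 1 × Fin 6 → F) := funext fun p => by
            obtain ⟨j, i'⟩ := p
            obtain rfl : j = 0 := Subsingleton.elim _ _
            by_cases h : i' = i
            · subst h; simp [emb]
            · simp [emb, h]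
          obtain ⟨c, hc⟩ := Submodule.mem_span_singleton.1 (hπ (0, i))
          rw [e, mulVec_smul, ← hc]
          funext j
          have : (j, l) ≠ π (0, i) := fun h => hl (by simpa using congrArg Prod.snd h)
          simp [blk, this]
      have hO : Over q σ M' :=
        ⟨hS, fun x h1 h2 h3 => hmem x h1 h2 (hmono x h3), fun x hx => (hiso' x hx).1,
          fun x hx => (hiso' x hx).2⟩
      exact mono_centres hO (by simp) hq (g₀ := g) hg₀M (fun h => hg₀ (hstab g (hmono g h)))
    refine gu_le_of_centres hF (by omega) hσ hfn fun v hv => ?_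
    obtain ⟨y, rfl⟩ := L.surjective v
    rw [hLf] at hv
    obtain ⟨hv', hc⟩ := hcent y hv
    refine ⟨by rw [hLf]; exact hv, fun c hc0 => ?_⟩
    convert Subgroup.mem_comap.1 (hc c hc0) using 1
    refine ext_mulVec fun u => ?_
    obtain ⟨x, rfl⟩ := L.surjective u
    rw [Cfsg.Agent.S5655.transport_mulVec, uT_mulVec, uT_mulVec, hLf, map_add, map_smul])


end CfsgLib.SUSix91
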